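import Cfsg.Agent.Hall.Basic

set_option autoImplicit false

/-! Glauberman's lemma: a complement `H` of a coprime normal subgroup `K` that is transitive on `X` fixes a point, and
`C_K(H)` is transitive on the fixed points of `H`. -/

namespace Cfsg.Agent.H91

open scoped Pointwise
open Cfsg.Agent.Hall

variable {G : Type*} [Group G] [Finite G]

theorem solvable_subgroupOf_or (K L : Subgroup G) [K.Normal]
    (hsolv : Group.IsSolvable K ∨ Group.IsSolvable (G ⧸ K)) :
    Group.IsSolvable (K.subgroupOf L) ∨ Group.IsSolvable (L ⧸ K.subgroupOf L) := by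
  rcases hsolv with h | h
  · left
    let f : (K.subgroupOf L) →* K :=
      { toFun := fun x => ⟨(x : L), Subgroup.mem_subgroupOf.1 x.2⟩
        map_one' := rfl
        map_mul' := fun _ _ => rfl }
    have hf : Function.Injective f := by
      intro x y hxy
      have h1 : ((x : L) : G) = ((y : L) : G) := congrArg (Subtype.val : K → G) hxy
      exact Subtype.ext (Subtype.ext h1)
    exact Group.isSolvable_of_isSolvable_injective hf
  · right
    let f : L ⧸ K.subgroupOf L →* G ⧸ K :=
      QuotientGroup.map (K.subgroupOf L) K L.subtype (by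
        intro x hx; exact hx)
    have hf : Function.Injective f := by
      rw [injective_iff_map_eq_one]
      intro x hx
      obtain ⟨y, rfl⟩ := QuotientGroup.mk_surjective x
      have h1 : ((y : G) : G ⧸ K) = 1 := hx
      rw [QuotientGroup.eq_one_iff] at h1
      rw [QuotientGroup.eq_one_iff]
      exact Subgroup.mem_subgroupOf.2 h1
    exact Group.isSolvable_of_isSolvable_injective hf

variable {X : Type*} [MulAction G X]

theorem sup_stabilizer_eq_top (K : Subgroup G) (htrans : MulAction.IsPretransitive K X) (x : X) :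
    MulAction.stabilizer G x ⊔ K = ⊤ := by
  rw [eq_top_iff]
  intro g _
  obtain ⟨k, hk⟩ := htrans.exists_smul_eq (g • x) x
  have hk' : (k : G) • g • x = x := hk
  have h1 : (k : G) * g ∈ MulAction.stabilizer G x := by
    rw [MulAction.mem_stabilizer_iff, mul_smul]; exact hk'
  have h2 : g = (k : G)⁻¹ * ((k : G) * g) := by group
  rw [h2]
  exact (MulAction.stabilizer G x ⊔ K).mul_mem (Subgroup.mem_sup_right (K.inv_mem k.2)) (Subgroup.mem_sup_left h1)

theorem index_subgroupOf_stabilizer (K : Subgroup G) [K.Normal] (htrans : MulAction.IsPretransitive K X) (x : X) :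
    (K.subgroupOf (MulAction.stabilizer G x)).index = K.index := by
  change K.relIndex (MulAction.stabilizer G x) = K.index
  rw [← Subgroup.relIndex_sup_right, sup_stabilizer_eq_top K htrans x, Subgroup.relIndex_top_right]

theorem coprime_subgroupOf (K L : Subgroup G) (n : ℕ) (hcop : (Nat.card K).Coprime n) :
    (Nat.card (K.subgroupOf L)).Coprime n := by
  refine Nat.Coprime.coprime_dvd_left ?_ hcop
  rw [← Subgroup.card_map_of_injective L.subtype_injective, Subgroup.subgroupOf_map_subtype]
  exact Subgroup.card_dvd_of_le inf_le_left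

/-- Glauberman's lemma, existence. -/
theorem glauberman_exists [Nonempty X] (K H : Subgroup G) [K.Normal] (hc : Subgroup.IsComplement' K H)
    (hcop : (Nat.card K).Coprime K.index) (hsolv : Group.IsSolvable K ∨ Group.IsSolvable (G ⧸ K))
    (htrans : MulAction.IsPretransitive K X) : ∃ x : X, ∀ h ∈ H, h • x = x := by
  obtain ⟨x⟩ := ‹Nonempty X›
  set L := MulAction.stabilizer G x with hL
  have hidx := index_subgroupOf_stabilizer K htrans x
  have hcopL : (Nat.card (K.subgroupOf L)).Coprime (K.subgroupOf L).index := by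
    rw [hidx]; exact coprime_subgroupOf K L _ hcop
  obtain ⟨U, hU⟩ := Subgroup.exists_right_complement'_of_coprime hcopL
  have hUcard : Nat.card U = K.index := by
    rw [(isComplement'_iff_of_coprime hcopL).1 hU, hidx]
  have hU' : Subgroup.IsComplement' K (U.map L.subtype) := by
    rw [isComplement'_iff_of_coprime hcop, Subgroup.card_map_of_injective L.subtype_injective, hUcard]
  obtain ⟨g, hg⟩ := sz_conj K hcop hsolv _ _ hU' hc
  refine ⟨g • x, fun h hh => ?_⟩
  rw [← hg, mem_conj_smul] at hh
  obtain ⟨u, -, hu⟩ := hh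
  have h1 : (g⁻¹ * h * g) • x = x := by rw [← hu]; exact u.2
  rw [mul_smul, mul_smul, inv_smul_eq_iff] at h1
  exact h1

/-- Glauberman's lemma, transitivity. -/
theorem glauberman_trans (K H : Subgroup G) [K.Normal] (hc : Subgroup.IsComplement' K H)
    (hcop : (Nat.card K).Coprime K.index) (hsolv : Group.IsSolvable K ∨ Group.IsSolvable (G ⧸ K))
    (htrans : MulAction.IsPretransitive K X) (x y : X) (hx : ∀ h ∈ H, h • x = x) (hy : ∀ h ∈ H, h • y = y) :
    ∃ k ∈ K ⊓ Subgroup.centralizer (H : Set G), k • x = y := by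
  obtain ⟨⟨k, hk⟩, hkx⟩ := htrans.exists_smul_eq x y
  have hkx' : k • x = y := hkx
  set L := MulAction.stabilizer G y with hL
  have hidx := index_subgroupOf_stabilizer K htrans y
  have hcopL : (Nat.card (K.subgroupOf L)).Coprime (K.subgroupOf L).index := by
    rw [hidx]; exact coprime_subgroupOf K L _ hcop
  have hHcard : Nat.card H = K.index := (isComplement'_iff_of_coprime hcop).1 hc
  have hHL : H ≤ L := fun h hh => by rw [hL, MulAction.mem_stabilizer_iff]; exact hy h hh
  have hH2L : MulAut.conj k • H ≤ L := by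
    intro h hh
    rw [mem_conj_smul] at hh
    rw [hL, MulAction.mem_stabilizer_iff]
    have h1 := hx _ hh
    rw [mul_smul, mul_smul, inv_smul_eq_iff, hkx'] at h1
    exact h1
  have hcomp : ∀ T : Subgroup G, T ≤ L → Nat.card T = K.index → Subgroup.IsComplement' (K.subgroupOf L) (T.subgroupOf L) := by
    intro T hT hTc
    rw [isComplement'_iff_of_coprime hcopL, hidx, Nat.card_congr (Subgroup.subgroupOfEquivOfLe hT).toEquiv, hTc]
  obtain ⟨u, hu, hu'⟩ := sz_conj_mem (K.subgroupOf L) hcopL (solvable_subgroupOf_or K L hsolv)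
    ((MulAut.conj k • H).subgroupOf L) (H.subgroupOf L) (hcomp _ hH2L (by rw [card_conj_smul, hHcard])) (hcomp _ hHL hHcard)
  have hu2 : MulAut.conj (u : G) • (MulAut.conj k • H) = H := conj_of_subgroupOf hH2L hHL u hu'
  rw [conj_smul_conj_smul] at hu2
  have huK : (u : G) ∈ K := Subgroup.mem_subgroupOf.1 hu
  have hmK : (u : G) * k ∈ K := K.mul_mem huK hk
  refine ⟨(u : G) * k, Subgroup.mem_inf.2 ⟨hmK, ?_⟩, ?_⟩
  · rw [Subgroup.mem_centralizer_iff]
    intro h hh
    have h1 : ((u : G) * k) * h * ((u : G) * k)⁻¹ ∈ H := by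
      rw [← hu2, mem_conj_smul]
      have : ((u : G) * k)⁻¹ * (((u : G) * k) * h * ((u : G) * k)⁻¹) * ((u : G) * k) = h := by group
      rw [this]; exact hh
    have h2 : ((u : G) * k) * h * ((u : G) * k)⁻¹ * h⁻¹ ∈ H := H.mul_mem h1 (H.inv_mem hh)
    have h3 : ((u : G) * k) * h * ((u : G) * k)⁻¹ * h⁻¹ ∈ K := by
      have : ((u : G) * k) * h * ((u : G) * k)⁻¹ * h⁻¹ = ((u : G) * k) * (h * ((u : G) * k)⁻¹ * h⁻¹) := by group
      rw [this]
      exact K.mul_mem hmK (Subgroup.Normal.conj_mem inferInstance _ (K.inv_mem hmK) h)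
    have h4 : ((u : G) * k) * h * ((u : G) * k)⁻¹ * h⁻¹ = 1 := by
      have := Subgroup.disjoint_def.1 hc.disjoint h3 h2
      exact this
    have h5 : ((u : G) * k) * h = h * ((u : G) * k) := by
      calc ((u : G) * k) * h = (((u : G) * k) * h * ((u : G) * k)⁻¹ * h⁻¹) * (h * ((u : G) * k)) := by group
        _ = h * ((u : G) * k) := by rw [h4, one_mul]
    exact h5.symm
  · rw [mul_smul, hkx']
    exact u.2

end Cfsg.Agent.H91
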