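import Cfsg.Prelude.Def_SporadicCombinatorics

set_option autoImplicit false

/-!
# The hexacode: an explicit model with symbols `0, 1, 2, 3` for `0, 1, ω, ω²`
-/

namespace Cfsg.Agent.H91.Hexa

open Cfsg

/-- the symbols -/
abbrev K : Type := Fin 4

def addL : List K := [0, 1, 2, 3, 1, 0, 3, 2, 2, 3, 0, 1, 3, 2, 1, 0]
def mulL : List K := [0, 0, 0, 0, 0, 1, 2, 3, 0, 2, 3, 1, 0, 3, 1, 2]

def kadd (a b : K) : K := addL.getD (4 * a.val + b.val) 0
def kmul (a b : K) : K := mulL.getD (4 * a.val + b.val) 0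

/-- the word with given first three symbols -/
def kw (a b c : K) : Fin 6 → K := ![a, b, c, kadd (kadd a b) c, kadd (kadd (kmul 3 a) (kmul 2 b)) c,
  kadd (kadd (kmul 2 a) (kmul 3 b)) c]

/-- combinations of the defining generators -/
def kc (a b c : K) : Fin 6 → K := fun i => kadd (kadd (kmul a ((![2, 3, 3, 2, 3, 2] : Fin 6 → K) i))
  (kmul b ((![3, 2, 2, 3, 3, 2] : Fin 6 → K) i))) (kmul c ((![3, 2, 3, 2, 2, 3] : Fin 6 → K) i))

theorem kc_kw : ∀ a b c : K, ∃ p q r : K, kw p q r = kc a b c := by decide +kernel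
theorem kw_kc : ∀ a b c : K, ∃ p q r : K, kc p q r = kw a b c := by decide +kernel

/-- the code as a predicate on symbol vectors -/
def InC (y : Fin 6 → K) : Prop := kw (y 0) (y 1) (y 2) = y

instance (y : Fin 6 → K) : Decidable (InC y) := by unfold InC; infer_instance

/-- a basis -/
def kb (j : Fin 3) : Fin 6 → K := (![kw 1 0 0, kw 0 1 0, kw 0 0 1] : Fin 3 → Fin 6 → K) j

theorem kw_split : ∀ a b c : K, ∀ i, kw a b c i =
    kadd (kadd (kmul a (kb 0 i)) (kmul b (kb 1 i))) (kmul c (kb 2 i)) := by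
  decide +kernel

def wt (u : K × K × K) : ℕ := (Finset.univ.filter fun i => kw u.1 u.2.1 u.2.2 i ≠ 0).card

theorem wt_cases : ∀ u : K × K × K, u ≠ 0 → wt u = 4 ∨ wt u = 6 := by decide +kernel
theorem card_wt4 : ((Finset.univ : Finset (K × K × K)).filter (fun u => wt u = 4)).card = 45 := by decide +kernel
theorem card_wt6 : ((Finset.univ : Finset (K × K × K)).filter (fun u => wt u = 6)).card = 18 := by decide +kernel

def dL : List (Fin 6 → K) := [![1, 1, 1, 1, 2, 3], ![1, 1, 1, 1, 3, 2], ![1, 1, 2, 3, 1, 1], ![1, 1, 3, 2, 1, 1], ![1, 2, 1, 3, 2, 3], ![1, 2, 2, 3, 1, 3], ![1, 2, 3, 1, 3, 2], ![1, 2, 3, 2, 3, 1], ![1, 2, 3, 3, 3, 3], ![1, 3, 1, 2, 2, 3], ![1, 3, 2, 1, 3, 2], ![1, 3, 2, 2, 2, 2], ![1, 3, 2, 3, 1, 2], ![1, 3, 3, 2, 2, 1]]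

theorem three_cycles : ∀ a b c : Fin 6, a ≠ b → a ≠ c → b ≠ c → ∃ d ∈ dL, (∀ i, d i ≠ 0) ∧
    ∀ j : Fin 3, InC (fun i => kmul (d i) (kb j ((Equiv.swap b c) ((Equiv.swap a b) i)))) := by
  decide +kernel

theorem no_swap : ∀ d0 d1 d2 d3 d4 d5 : K, d0 ≠ 0 → d1 ≠ 0 → d2 ≠ 0 → d3 ≠ 0 → d4 ≠ 0 → d5 ≠ 0 →
    ¬ ∀ j : Fin 3, InC (fun i => kmul ((![d0, d1, d2, d3, d4, d5] : Fin 6 → K) i)
      (kb j ((Equiv.swap (0 : Fin 6) 1) i))) := by
  decide +kernel

theorem diag : ∀ d0 d1 d2 d3 d4 d5 : K, d0 ≠ 0 → d1 ≠ 0 → d2 ≠ 0 → d3 ≠ 0 → d4 ≠ 0 → d5 ≠ 0 →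
    (∀ j : Fin 3, InC (fun i => kmul ((![d0, d1, d2, d3, d4, d5] : Fin 6 → K) i) (kb j i))) →
      d0 = d1 ∧ d1 = d2 ∧ d2 = d3 ∧ d3 = d4 ∧ d4 = d5 := by
  decide +kernel

/-! ### The field -/

section Field

variable {F : Type*} [Field F] [Fintype F] [DecidableEq F]

/-- the symbols as field elements -/
def ev (ω : F) : K → F := ![0, 1, ω, ω ^ 2]

variable (hF : Fintype.card F = 4) {ω : F} (hω : ω ^ 2 + ω + 1 = 0)
include hF hω

theorem two_eq_zero : (2 : F) = 0 := by
  have h1 : ((Fintype.card F : ℕ) : F) = 0 := Nat.cast_card_eq_zero F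
  rw [hF] at h1
  have h2 : (2 : F) * 2 = 0 := by
    rw [← h1]; push_cast; norm_num
  rcases mul_eq_zero.1 h2 with h | h <;> exact h

theorem add_self (a : F) : a + a = 0 := by
  rw [← two_mul, two_eq_zero hF hω, zero_mul]

theorem w_sq : ω ^ 2 = ω + 1 := by
  have h1 := add_self hF hω (ω + 1)
  have h2 : ω ^ 2 + (ω + 1) = (ω + 1) + (ω + 1) := by rw [h1, ← add_assoc, hω]
  exact add_right_cancel h2

theorem w_cu : ω * ω ^ 2 = 1 := by
  have h1 : ω * ω ^ 2 = ω ^ 2 + ω := by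
    conv_lhs => rw [w_sq hF hω]
    ring
  rw [h1, w_sq hF hω]
  have := add_self hF hω ω
  linear_combination this

theorem ev_add (a b : K) : ev ω (kadd a b) = ev ω a + ev ω b := by
  have h1 := add_self hF hω (1 : F)
  have h2 := add_self hF hω ω
  have h3 := add_self hF hω (ω ^ 2)
  have h4 := w_sq hF hω
  fin_cases a <;> fin_cases b
  all_goals first
    | (change _ = (0 : F) + _; rw [zero_add]; rfl)
    | (change _ = _ + (0 : F); rw [add_zero]; rfl)
    | (change (0 : F) = (1 : F) + 1; exact h1.symm)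
    | (change (0 : F) = ω + ω; exact h2.symm)
    | (change (0 : F) = ω ^ 2 + ω ^ 2; exact h3.symm)
    | (change ω ^ 2 = 1 + ω; rw [h4]; ring)
    | (change ω ^ 2 = ω + 1; exact h4)
    | (change ω = 1 + ω ^ 2; rw [h4]; linear_combination -h1)
    | (change ω = ω ^ 2 + 1; rw [h4]; linear_combination -h1)
    | (change (1 : F) = ω + ω ^ 2; rw [h4]; linear_combination -h2)
    | (change (1 : F) = ω ^ 2 + ω; rw [h4]; linear_combination -h2)

theorem ev_mul (a b : K) : ev ω (kmul a b) = ev ω a * ev ω b := by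
  have h1 := w_cu hF hω
  fin_cases a <;> fin_cases b
  all_goals first
    | (change _ = (0 : F) * _; rw [zero_mul]; rfl)
    | (change _ = _ * (0 : F); rw [mul_zero]; rfl)
    | (change _ = (1 : F) * _; rw [one_mul]; rfl)
    | (change _ = _ * (1 : F); rw [mul_one]; rfl)
    | (change ω ^ 2 = ω * ω; rw [sq])
    | (change (1 : F) = ω * ω ^ 2; exact h1.symm)
    | (change (1 : F) = ω ^ 2 * ω; rw [mul_comm]; exact h1.symm)
    | (change ω = ω ^ 2 * ω ^ 2; linear_combination -ω * h1)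

theorem w_ne_zero : ω ≠ 0 := by
  rintro rfl
  have := w_cu hF hω
  simp at this

theorem w_ne_one : ω ≠ 1 := by
  intro h
  have h1 := add_self hF hω (1 : F)
  rw [h, one_pow, h1, zero_add] at hω
  exact one_ne_zero hω

theorem ev_injective : Function.Injective (ev ω) := by
  have h0 := w_ne_zero hF hω
  have h1 := w_ne_one hF hω
  have h2 := w_sq hF hω
  have h3 : ω ^ 2 ≠ 0 := pow_ne_zero 2 h0
  have h4 : ω ^ 2 ≠ 1 := by
    rw [h2]; intro h; apply h0; linear_combination h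
  have h5 : ω ^ 2 ≠ ω := by
    rw [h2]; intro h
    have : (1 : F) = 0 := by linear_combination h
    exact one_ne_zero this
  intro a b h
  fin_cases a <;> fin_cases b
  all_goals first
    | rfl
    | (exact absurd (show (0 : F) = 1 from h) zero_ne_one)
    | (exact absurd (show (1 : F) = 0 from h) one_ne_zero)
    | (exact absurd (show (0 : F) = ω from h) h0.symm)
    | (exact absurd (show ω = 0 from h) h0)
    | (exact absurd (show (0 : F) = ω ^ 2 from h) h3.symm)
    | (exact absurd (show ω ^ 2 = 0 from h) h3)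
    | (exact absurd (show (1 : F) = ω from h) h1.symm)
    | (exact absurd (show ω = 1 from h) h1)
    | (exact absurd (show (1 : F) = ω ^ 2 from h) h4.symm)
    | (exact absurd (show ω ^ 2 = 1 from h) h4)
    | (exact absurd (show ω = ω ^ 2 from h) h5.symm)
    | (exact absurd (show ω ^ 2 = ω from h) h5)

theorem ev_bijective : Function.Bijective (ev ω) := by
  rw [Fintype.bijective_iff_injective_and_card]
  exact ⟨ev_injective hF hω, by rw [hF, Fintype.card_fin]⟩

omit [Fintype F] [DecidableEq F] hF hω in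
theorem ev_zero : ev ω 0 = 0 := rfl

omit [DecidableEq F] in
theorem ev_ne_zero {a : K} : ev ω a ≠ 0 ↔ a ≠ 0 := by
  classical
  rw [← ev_zero (ω := ω), ne_eq, (ev_injective hF hω).eq_iff]

/-- word of the code over `F` -/
def wF (ω : F) (a b c : K) : Fin 6 → F := fun i => ev ω (kw a b c i)

theorem ev_kc (a b c : K) : (fun i => ev ω (kc a b c i)) = ev ω a • ![ω, ω ^ 2, ω ^ 2, ω, ω ^ 2, ω] +
    ev ω b • ![ω ^ 2, ω, ω, ω ^ 2, ω ^ 2, ω] + ev ω c • ![ω ^ 2, ω, ω ^ 2, ω, ω, ω ^ 2] := by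
  funext i
  simp only [kc, ev_add hF hω, ev_mul hF hω, Pi.add_apply, Pi.smul_apply, smul_eq_mul]
  fin_cases i <;> rfl

theorem mem_hexacode {x : Fin 6 → F} : x ∈ hexacode F ω ↔ ∃ a b c : K, x = wF ω a b c := by
  unfold hexacode
  rw [Submodule.mem_span_triple]
  constructor
  · rintro ⟨a, b, c, rfl⟩
    obtain ⟨a, rfl⟩ := (ev_bijective hF hω).2 a
    obtain ⟨b, rfl⟩ := (ev_bijective hF hω).2 b
    obtain ⟨c, rfl⟩ := (ev_bijective hF hω).2 c
    obtain ⟨p, q, r, h⟩ := kc_kw a b c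
    refine ⟨p, q, r, ?_⟩
    rw [← ev_kc hF hω, ← h]; rfl
  · rintro ⟨a, b, c, rfl⟩
    obtain ⟨p, q, r, h⟩ := kw_kc a b c
    refine ⟨ev ω p, ev ω q, ev ω r, ?_⟩
    rw [← ev_kc hF hω, h]; rfl

theorem wF_injective {a b c a' b' c' : K} (h : wF ω a b c = wF ω a' b' c') : a = a' ∧ b = b' ∧ c = c' := by
  have h1 := ev_injective hF hω
  exact ⟨h1 (congrFun h 0), h1 (congrFun h 1), h1 (congrFun h 2)⟩

/-- parametrisation of the code -/
noncomputable def codeEquiv : K × K × K ≃ hexacode F ω :=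
  Equiv.ofBijective (fun u => ⟨wF ω u.1 u.2.1 u.2.2, (mem_hexacode hF hω).2 ⟨_, _, _, rfl⟩⟩) (by
    constructor
    · rintro ⟨a, b, c⟩ ⟨a', b', c'⟩ h
      obtain ⟨rfl, rfl, rfl⟩ := wF_injective hF hω (congrArg Subtype.val h)
      rfl
    · rintro ⟨x, hx⟩
      obtain ⟨a, b, c, rfl⟩ := (mem_hexacode hF hω).1 hx
      exact ⟨(a, b, c), rfl⟩)

theorem card_code : Nat.card (hexacode F ω) = 64 := by
  rw [← Nat.card_congr (codeEquiv hF hω), Nat.card_eq_fintype_card]
  simp only [Fintype.card_prod, Fintype.card_fin]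

theorem wt_eq (a b c : K) : (Finset.univ.filter fun i => wF ω a b c i ≠ 0).card = wt (a, b, c) := by
  unfold wt
  congr 1
  ext i
  simp only [Finset.mem_filter, Finset.mem_univ, true_and]
  exact ev_ne_zero hF hω

theorem weight_cases {x : Fin 6 → F} (hx : x ∈ hexacode F ω) (h0 : x ≠ 0) :
    (Finset.univ.filter fun i => x i ≠ 0).card = 4 ∨ (Finset.univ.filter fun i => x i ≠ 0).card = 6 := by
  obtain ⟨a, b, c, rfl⟩ := (mem_hexacode hF hω).1 hx
  rw [wt_eq hF hω]
  apply wt_cases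
  intro h
  apply h0
  simp only [Prod.mk_eq_zero] at h
  obtain ⟨rfl, rfl, rfl⟩ := h
  funext i
  have : kw 0 0 0 i = 0 := by revert i; decide
  change ev ω (kw 0 0 0 i) = 0
  rw [this]; rfl

theorem ncard_wt (k : ℕ) : {x : Fin 6 → F | x ∈ hexacode F ω ∧
    (Finset.univ.filter fun i => x i ≠ 0).card = k}.ncard =
    ((Finset.univ : Finset (K × K × K)).filter (fun u => wt u = k)).card := by
  rw [← Set.ncard_coe_finset]
  symm
  apply Set.ncard_congr (fun u _ => wF ω u.1 u.2.1 u.2.2)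
  · rintro ⟨a, b, c⟩ hu
    rw [Finset.mem_coe, Finset.mem_filter] at hu
    exact ⟨(mem_hexacode hF hω).2 ⟨a, b, c, rfl⟩, (wt_eq hF hω a b c).trans hu.2⟩
  · rintro ⟨a, b, c⟩ ⟨a', b', c'⟩ _ _ h
    obtain ⟨rfl, rfl, rfl⟩ := wF_injective hF hω h
    rfl
  · rintro x ⟨hx, hk⟩
    obtain ⟨a, b, c, rfl⟩ := (mem_hexacode hF hω).1 hx
    refine ⟨(a, b, c), ?_, rfl⟩
    rw [Finset.mem_coe, Finset.mem_filter]
    exact ⟨Finset.mem_univ _, by rw [← wt_eq hF hω]; exact hk⟩

/-! ### Monomial automorphisms -/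

/-- monomial maps preserving the code -/
def Pres (ω : F) (σ : Equiv.Perm (Fin 6)) (c : Fin 6 → Fˣ) : Prop :=
  ∀ x ∈ hexacode F ω, monomialMap σ c x ∈ hexacode F ω

theorem mem_of_inC {y : Fin 6 → K} (h : InC y) : (fun i => ev ω (y i)) ∈ hexacode F ω := by
  rw [mem_hexacode hF hω]
  refine ⟨y 0, y 1, y 2, ?_⟩
  funext i
  unfold wF
  rw [h]

theorem inC_of_mem {y : Fin 6 → K} (h : (fun i => ev ω (y i)) ∈ hexacode F ω) : InC y := by
  rw [mem_hexacode hF hω] at h
  obtain ⟨a, b, c, h⟩ := h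
  have h1 := ev_injective hF hω
  have h2 : ∀ i, y i = kw a b c i := fun i => h1 (congrFun h i)
  unfold InC
  rw [h2 0, h2 1, h2 2]
  funext i
  rw [h2 i]; rfl

omit [Fintype F] [DecidableEq F] hF hω in
theorem monomialMap_add (σ : Equiv.Perm (Fin 6)) (c : Fin 6 → Fˣ) (x y : Fin 6 → F) :
    monomialMap σ c (x + y) = monomialMap σ c x + monomialMap σ c y := by
  funext p; simp [monomialMap, mul_add]

omit [Fintype F] [DecidableEq F] hF hω in
theorem monomialMap_smul (σ : Equiv.Perm (Fin 6)) (c : Fin 6 → Fˣ) (a : F)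
    (x : Fin 6 → F) : monomialMap σ c (a • x) = a • monomialMap σ c x := by
  funext p; simp [monomialMap, mul_left_comm]

theorem wF_split (a b c : K) : wF ω a b c = ev ω a • (fun i => ev ω (kb 0 i)) +
    ev ω b • (fun i => ev ω (kb 1 i)) + ev ω c • (fun i => ev ω (kb 2 i)) := by
  funext i
  unfold wF
  rw [kw_split, ev_add hF hω, ev_add hF hω, ev_mul hF hω, ev_mul hF hω, ev_mul hF hω]
  rfl

theorem mono_ev (σ : Equiv.Perm (Fin 6)) {c : Fin 6 → Fˣ} {d : Fin 6 → K} (h : ∀ i, (c i : F) = ev ω (d i))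
    (y : Fin 6 → K) : monomialMap σ c (fun i => ev ω (y i)) = fun i => ev ω (kmul (d i) (y (σ.symm i))) := by
  funext i
  unfold monomialMap
  rw [ev_mul hF hω, h]

theorem pres_iff (σ : Equiv.Perm (Fin 6)) {c : Fin 6 → Fˣ} {d : Fin 6 → K} (h : ∀ i, (c i : F) = ev ω (d i)) :
    Pres ω σ c ↔ ∀ j : Fin 3, InC (fun i => kmul (d i) (kb j (σ.symm i))) := by
  constructor
  · intro hp j
    apply inC_of_mem hF hω
    rw [← mono_ev hF hω σ h]
    apply hp
    apply mem_of_inC hF hω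
    revert j
    decide +kernel
  · intro hj x hx
    rw [mem_hexacode hF hω] at hx
    obtain ⟨p, q, r, rfl⟩ := hx
    rw [wF_split hF hω, monomialMap_add, monomialMap_add, monomialMap_smul, monomialMap_smul,
      monomialMap_smul, mono_ev hF hω σ h, mono_ev hF hω σ h, mono_ev hF hω σ h]
    have h1 := fun j => mem_of_inC hF hω (hj j)
    exact (hexacode F ω).add_mem ((hexacode F ω).add_mem ((hexacode F ω).smul_mem _ (h1 0))
      ((hexacode F ω).smul_mem _ (h1 1))) ((hexacode F ω).smul_mem _ (h1 2))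

/-- symbols of units -/
theorem exists_sym (c : Fin 6 → Fˣ) : ∃ d : Fin 6 → K, (∀ i, (c i : F) = ev ω (d i)) ∧ ∀ i, d i ≠ 0 := by
  have h := fun i => (ev_bijective hF hω).2 (c i : F)
  choose d hd using h
  refine ⟨d, fun i => (hd i).symm, fun i h0 => ?_⟩
  have h1 := hd i
  rw [h0] at h1
  exact (c i).ne_zero h1.symm

theorem exists_units {d : Fin 6 → K} (hd : ∀ i, d i ≠ 0) : ∃ c : Fin 6 → Fˣ, ∀ i, (c i : F) = ev ω (d i) :=
  ⟨fun i => Units.mk0 (ev ω (d i)) ((ev_ne_zero hF hω).2 (hd i)), fun _ => rfl⟩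

/-- Diagonal automorphisms are scalars. -/
theorem diag_const {c : Fin 6 → Fˣ} (h : Pres ω 1 c) : ∀ i j, c i = c j := by
  obtain ⟨d, hd, h0⟩ := exists_sym hF hω c
  rw [pres_iff hF hω 1 hd] at h
  have hv : (![d 0, d 1, d 2, d 3, d 4, d 5] : Fin 6 → K) = d := by
    funext i; fin_cases i <;> rfl
  obtain ⟨e0, e1, e2, e3, e4⟩ := diag (d 0) (d 1) (d 2) (d 3) (d 4) (d 5) (h0 0) (h0 1) (h0 2) (h0 3)
    (h0 4) (h0 5) (by rw [hv]; exact h)
  have h5 : ∀ i, d i = d 0 := by
    intro i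
    fin_cases i
    · rfl
    · exact e0.symm
    · exact (e0.trans e1).symm
    · exact (e0.trans (e1.trans e2)).symm
    · exact (e0.trans (e1.trans (e2.trans e3))).symm
    · exact (e0.trans (e1.trans (e2.trans (e3.trans e4)))).symm
  intro i j
  apply Units.ext
  rw [hd i, hd j, h5 i, h5 j]

/-- permutation parts -/
def InP (ω : F) (σ : Equiv.Perm (Fin 6)) : Prop := ∃ c, Pres ω σ c

omit [Fintype F] [DecidableEq F] hF hω in
theorem InP.mul {σ τ : Equiv.Perm (Fin 6)} (hσ : InP ω σ) (hτ : InP ω τ) : InP ω (σ * τ) := by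
  obtain ⟨c, hc⟩ := hσ
  obtain ⟨d, hd⟩ := hτ
  refine ⟨fun i => c i * d (σ.symm i), fun x hx => ?_⟩
  have h := hc _ (hd x hx)
  have : monomialMap (σ * τ) (fun i => c i * d (σ.symm i)) x = monomialMap σ c (monomialMap τ d x) := by
    funext p
    unfold monomialMap
    rw [Units.val_mul, mul_assoc]; rfl
  rw [this]; exact h

omit [Fintype F] [DecidableEq F] hF hω in
theorem inP_one : InP ω 1 := ⟨fun _ => 1, fun x hx => by
  have : monomialMap 1 (fun _ => (1 : Fˣ)) x = x := by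
    funext p
    unfold monomialMap
    rw [Units.val_one, one_mul]; rfl
  rw [this]; exact hx⟩

theorem inP_three {σ : Equiv.Perm (Fin 6)} (h : σ.IsThreeCycle) : InP ω σ := by
  obtain ⟨a, ha⟩ : ∃ a, a ∈ σ.support := by
    have := h.card_support
    by_contra hne
    push Not at hne
    have h1 : σ.support = ∅ := Finset.eq_empty_of_forall_notMem hne
    rw [h1] at this
    exact absurd this (by decide)
  have h1 := h.eq_swap_mul_swap_iff_mem_support.2 ha
  have h2 := h.nodup_iff_mem_support.2 ha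
  simp only [List.nodup_cons, List.mem_cons, List.not_mem_nil, or_false, not_or, not_false_eq_true,
    List.nodup_nil, and_true] at h2
  obtain ⟨⟨h3, h4⟩, h5⟩ := h2
  obtain ⟨d, _, hd0, hd⟩ := three_cycles a (σ a) (σ (σ a)) h3 h4 h5
  obtain ⟨c, hc⟩ := exists_units hF hω hd0
  refine ⟨c, ?_⟩
  rw [pres_iff hF hω σ hc]
  intro j
  have h6 : ∀ i, σ.symm i = (Equiv.swap (σ a) (σ (σ a))) ((Equiv.swap a (σ a)) i) := by
    intro i
    change σ⁻¹ i = _
    have h7 : σ⁻¹ = Equiv.swap (σ a) (σ (σ a)) * Equiv.swap a (σ a) := by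
      rw [h1, mul_inv_rev, Equiv.swap_inv, Equiv.swap_inv, ← h1]
    rw [h7]; rfl
  simp only [h6]
  exact hd j

theorem inP_of_alt {σ : Equiv.Perm (Fin 6)} (h : σ ∈ alternatingGroup (Fin 6)) : InP ω σ := by
  rw [← Equiv.Perm.closure_three_cycles_eq_alternating] at h
  induction h using Subgroup.closure_induction with
  | mem x hx => exact inP_three hF hω hx
  | one => exact inP_one
  | mul x y _ _ hx hy => exact hx.mul hy
  | inv x _ hx =>
    -- finite order
    have h1 : x⁻¹ = x ^ (orderOf x - 1) := by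
      rw [eq_comm, ← mul_eq_one_iff_eq_inv, ← pow_succ, Nat.sub_add_cancel (orderOf_pos x), pow_orderOf_eq_one]
    rw [h1]
    generalize orderOf x - 1 = n
    induction n with
    | zero => rw [pow_zero]; exact inP_one
    | succ n ih => rw [pow_succ]; exact ih.mul hx

theorem not_inP_swap : ¬ InP ω (Equiv.swap (0 : Fin 6) 1) := by
  rintro ⟨c, hc⟩
  obtain ⟨d, hd, h0⟩ := exists_sym hF hω c
  rw [pres_iff hF hω _ hd] at hc
  have hv : (![d 0, d 1, d 2, d 3, d 4, d 5] : Fin 6 → K) = d := by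
    funext i; fin_cases i <;> rfl
  apply no_swap (d 0) (d 1) (d 2) (d 3) (d 4) (d 5) (h0 0) (h0 1) (h0 2) (h0 3) (h0 4) (h0 5)
  rw [hv]
  exact hc

theorem inP_iff {σ : Equiv.Perm (Fin 6)} : InP ω σ ↔ σ ∈ alternatingGroup (Fin 6) := by
  constructor
  · intro h
    by_contra hn
    apply not_inP_swap hF hω
    have h1 : Equiv.swap (0 : Fin 6) 1 * σ⁻¹ ∈ alternatingGroup (Fin 6) := by
      rw [Equiv.Perm.mem_alternatingGroup] at hn ⊢
      rw [Equiv.Perm.sign_mul, Equiv.Perm.sign_inv, Equiv.Perm.sign_swap (by decide)]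
      rcases Int.units_eq_one_or (Equiv.Perm.sign σ) with h2 | h2
      · exact absurd h2 hn
      · rw [h2]; decide
    have h2 := (inP_of_alt hF hω h1).mul h
    rwa [inv_mul_cancel_right] at h2
  · exact inP_of_alt hF hω

theorem pres_scale {σ : Equiv.Perm (Fin 6)} {c : Fin 6 → Fˣ} (hc : Pres ω σ c) (u : Fˣ) :
    Pres ω σ (fun p => u * c p) := by
  clear hF hω
  intro x hx
  have : monomialMap σ (fun p => u * c p) x = (u : F) • monomialMap σ c x := by
    funext p
    unfold monomialMap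
    rw [Units.val_mul, mul_assoc]; rfl
  rw [this]
  exact (hexacode F ω).smul_mem _ (hc x hx)

theorem pres_sign {σ : Equiv.Perm (Fin 6)} {c d : Fin 6 → Fˣ} (hc : Pres ω σ c) (hd : Pres ω σ d) :
    ∀ p q, d p * (c p)⁻¹ = d q * (c q)⁻¹ := by
  have hsurj : ∀ y ∈ hexacode F ω, ∃ x ∈ hexacode F ω, monomialMap σ c x = y := by
    let f : hexacode F ω → hexacode F ω := fun x => ⟨monomialMap σ c x.1, hc x.1 x.2⟩
    have hf : Function.Injective f := by
      intro x y h
      have h1 : monomialMap σ c x.1 = monomialMap σ c y.1 := congrArg Subtype.val h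
      apply Subtype.ext
      funext p
      have h2 := congrFun h1 (σ p)
      unfold monomialMap at h2
      rw [Equiv.symm_apply_apply] at h2
      exact mul_left_cancel₀ (c (σ p)).ne_zero h2
    have hf' := Finite.surjective_of_injective hf
    intro y hy
    obtain ⟨x, hx⟩ := hf' ⟨y, hy⟩
    exact ⟨x.1, x.2, congrArg Subtype.val hx⟩
  apply diag_const hF hω (c := fun p => d p * (c p)⁻¹)
  intro y hy
  obtain ⟨x, hx, rfl⟩ := hsurj y hy
  have : monomialMap 1 (fun p => d p * (c p)⁻¹) (monomialMap σ c x) = monomialMap σ d x := by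
    funext p
    unfold monomialMap
    change ((d p * (c p)⁻¹ : Fˣ) : F) * ((c p : F) * x (σ.symm p)) = _
    rw [← mul_assoc, ← Units.val_mul, inv_mul_cancel_right]
  rw [this]
  exact hd x hx

theorem card_mono : Nat.card {f : Equiv.Perm (Fin 6) × (Fin 6 → Fˣ) //
    ∀ x ∈ hexacode F ω, monomialMap f.1 f.2 x ∈ hexacode F ω} = 1080 := by
  have hP : ∀ σ : alternatingGroup (Fin 6), ∃ c, Pres ω σ.1 c := fun σ => (inP_iff hF hω).2 σ.2
  choose c hc using hP
  let G : alternatingGroup (Fin 6) × Fˣ → {f : Equiv.Perm (Fin 6) × (Fin 6 → Fˣ) //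
    ∀ x ∈ hexacode F ω, monomialMap f.1 f.2 x ∈ hexacode F ω} := fun a =>
      ⟨(a.1.1, fun p => a.2 * c a.1 p), pres_scale hF hω (hc a.1) a.2⟩
  have hG : Function.Bijective G := by
    constructor
    · rintro ⟨σ, u⟩ ⟨τ, v⟩ h
      have h1 := congrArg (fun f => f.1.1) h
      have h2 := congrArg (fun f => f.1.2 0) h
      have h3 : σ = τ := Subtype.ext h1
      subst h3
      have h4 : u * c σ 0 = v * c σ 0 := h2
      rw [mul_left_inj] at h4
      rw [h4]
    · rintro ⟨⟨σ, d⟩, hd⟩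
      have hσ : σ ∈ alternatingGroup (Fin 6) := (inP_iff hF hω).1 ⟨d, hd⟩
      have h1 := pres_sign hF hω (hc ⟨σ, hσ⟩) hd
      refine ⟨(⟨σ, hσ⟩, d 0 * (c ⟨σ, hσ⟩ 0)⁻¹), ?_⟩
      apply Subtype.ext
      apply Prod.ext
      · rfl
      · funext p
        change d 0 * (c ⟨σ, hσ⟩ 0)⁻¹ * c ⟨σ, hσ⟩ p = d p
        rw [h1 0 p, inv_mul_cancel_right]
  rw [← Nat.card_eq_of_bijective G hG, Nat.card_prod]
  have h1 : Nat.card Fˣ = 3 := by
    rw [Nat.card_units, Nat.card_eq_fintype_card, hF]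
  have h2 : Nat.card (alternatingGroup (Fin 6)) = 360 := by
    have := two_mul_nat_card_alternatingGroup (α := Fin 6)
    rw [Nat.card_perm, Nat.card_eq_fintype_card (α := Fin 6), Fintype.card_fin] at this
    have h6 : Nat.factorial 6 = 720 := by decide
    omega
  rw [h1, h2]

end Field

end Cfsg.Agent.H91.Hexa
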