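import Cfsg.Agent.H91.CoprimeAb
import Cfsg.Agent.Cop.Basic
import Cfsg.Agent.S0023
import Mathlib.GroupTheory.IndexNormal

set_option autoImplicit false
open scoped commutatorElement

/-! Coprime action with `|K : C_K(A)| = p` prime: `|[K, A]| = p`. -/

namespace Cfsg.Agent.H91

variable {G : Type*} [Group G] [Finite G]

theorem commute_conj_iff {d g : G} : g * d * g⁻¹ = d ↔ g * d = d * g := by
  constructor
  · intro h
    calc g * d = (g * d * g⁻¹) * g := by group
      _ = d * g := by rw [h]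
  · intro h
    rw [h]; group

/-- the `p`-group case -/
theorem card_commutator_of_pgroup (A P : Subgroup G) (hAP : A ≤ Subgroup.normalizer (P : Set G))
    (hcop : (Nat.card A).Coprime (Nat.card P)) (p : ℕ) [hp : Fact p.Prime] (hP : IsPGroup p P)
    (hidx : (P ⊓ Subgroup.centralizer (A : Set G)).relIndex P = p) :
    Nat.card (⁅P, A⁆ : Subgroup G) = p ∧ ⁅P, A⁆ ⊓ Subgroup.centralizer (A : Set G) = ⊥ := by
  classical
  set E : Subgroup G := P ⊓ Subgroup.centralizer (A : Set G) with hE
  set R : Subgroup G := ⁅P, A⁆ with hR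
  have hEP : E ≤ P := inf_le_left
  have hRP : R ≤ P := Subgroup.le_normalizer_iff_commutator_le_left.1 hAP
  haveI hPnil : Group.IsNilpotent P := hP.isNilpotent
  have hsolvP : Group.IsSolvable P := inferInstance
  have hEA : ∀ e ∈ E, ∀ a ∈ A, a * e = e * a := by
    intro e he a ha
    exact (Subgroup.mem_centralizer_iff.1 he.2) a ha
  -- E normal in P
  have hEnorm : (E.subgroupOf P).Normal := by
    apply Subgroup.normal_of_index_eq_minFac_card
    have h1 : (E.subgroupOf P).index = p := hidx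
    rw [h1]
    obtain ⟨n, hn⟩ := IsPGroup.iff_card.1 hP
    have hn0 : n ≠ 0 := by
      rintro rfl
      have h2 : p ∣ Nat.card P := by rw [← h1]; exact Subgroup.index_dvd_card _
      rw [hn, pow_zero, Nat.dvd_one] at h2
      exact hp.out.one_lt.ne' h2
    rw [hn, hp.out.pow_minFac hn0]
  have hPE : ∀ x ∈ P, ∀ e ∈ E, x * e * x⁻¹ ∈ E := by
    intro x hx e he
    have := hEnorm.conj_mem ⟨e, hEP he⟩ (Subgroup.mem_subgroupOf.2 he) ⟨x, hx⟩
    exact Subgroup.mem_subgroupOf.1 this
  -- R centralizes E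
  have hRE : R ≤ Subgroup.centralizer (E : Set G) := by
    rw [hR, Subgroup.commutator_le]
    intro x hx a ha
    rw [Subgroup.mem_centralizer_iff]
    intro e he
    have h1 : x⁻¹ * e * x ∈ E := by
      have := hPE x⁻¹ (P.inv_mem hx) e he
      rwa [inv_inv] at this
    have h2 : a * (x⁻¹ * e * x) * a⁻¹ = x⁻¹ * e * x := commute_conj_iff.2 (hEA _ h1 a ha)
    have h3 : a⁻¹ * e * a = e := by
      have := commute_conj_iff.2 (hEA _ he a⁻¹ (A.inv_mem ha))
      rwa [inv_inv] at this
    have h4 : ⁅x, a⁆ * e * ⁅x, a⁆⁻¹ = e := by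
      rw [commutatorElement_def]
      calc x * a * x⁻¹ * a⁻¹ * e * (x * a * x⁻¹ * a⁻¹)⁻¹ = x * (a * (x⁻¹ * (a⁻¹ * e * a) * x) * a⁻¹) * x⁻¹ := by group
        _ = x * (a * (x⁻¹ * e * x) * a⁻¹) * x⁻¹ := by rw [h3]
        _ = x * (x⁻¹ * e * x) * x⁻¹ := by rw [h2]
        _ = e := by group
    exact (commute_conj_iff.1 h4).symm
  have hsup : R ⊔ E = P := Cfsg.Agent.Cop.commutator_sup_centralizer hAP hcop (Or.inr hsolvP)
  have hRnE : R ≤ Subgroup.normalizer (E : Set G) := hRE.trans (Subgroup.centralizer_le_normalizer _)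
  have hidxR : (R ⊓ E).relIndex R = p := by
    rw [inf_comm, Subgroup.inf_relIndex_right, ← Cfsg.Agent.Cop.relIndex_sup_eq hRnE, hsup]
    exact hidx
  -- R is abelian
  have hRcomm : IsMulCommutative R := by
    let N : Subgroup R := (R ⊓ E).subgroupOf R
    have hNZ : N ≤ Subgroup.center R := by
      intro x hx
      have hx' : (x : G) ∈ R ⊓ E := Subgroup.mem_subgroupOf.1 hx
      rw [Subgroup.mem_center_iff]
      intro y
      apply Subtype.ext
      exact ((Subgroup.mem_centralizer_iff.1 (hRE y.2)) x hx'.2).symm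
    haveI : N.Normal := ⟨fun x hx y => by
      have h1 : y * x * y⁻¹ = x := by
        rw [(Subgroup.mem_center_iff.1 (hNZ hx)) y]; group
      rw [h1]; exact hx⟩
    have hcard : Nat.card (R ⧸ N) = p := hidxR
    haveI : IsCyclic (R ⧸ N) := isCyclic_of_prime_card hcard
    refine ⟨⟨fun a b => ?_⟩⟩
    exact commutative_of_cyclic_center_quotient (QuotientGroup.mk' N) (by rw [QuotientGroup.ker_mk']; exact hNZ) a b
  have hAR : A ≤ Subgroup.normalizer (R : Set G) := Subgroup.normalizer_commutator_ge_right P A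
  have hcopR : (Nat.card A).Coprime (Nat.card R) :=
    Nat.Coprime.coprime_dvd_right (Subgroup.card_dvd_of_le hRP) hcop
  obtain ⟨h1, -⟩ := abelian_decomp A R hAR hcopR
  have hRA : ⁅R, A⁆ = R := Cfsg.Agent.Cop.commutator_commutator_eq hAP hcop (Or.inr hsolvP)
  have h2 : R ⊓ Subgroup.centralizer (A : Set G) = ⊥ := by
    rw [hRA] at h1
    rw [eq_bot_iff, ← h1]
    intro x hx
    exact ⟨hx, hx.1⟩
  have h3 : R ⊓ E = ⊥ := by
    rw [eq_bot_iff, ← h2]
    intro x hx
    exact ⟨hx.1, hx.2.2⟩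
  refine ⟨?_, h2⟩
  rw [h3, Subgroup.relIndex_bot_left] at hidxR
  exact hidxR

theorem card_commutator_of_index (A K : Subgroup G) (hAK : A ≤ Subgroup.normalizer (K : Set G))
    (hcop : (Nat.card A).Coprime (Nat.card K)) (hsolv : Group.IsSolvable A ∨ Group.IsSolvable K)
    (p : ℕ) (hp : p.Prime) (hidx : (K ⊓ Subgroup.centralizer (A : Set G)).relIndex K = p) :
    Nat.card (⁅K, A⁆ : Subgroup G) = p := by
  classical
  haveI : Fact p.Prime := ⟨hp⟩
  obtain ⟨P₀, hP₀⟩ := Cfsg.Agent.S0023.result A K hAK hcop hsolv p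
  set P : Subgroup G := (P₀ : Subgroup K).map K.subtype with hP
  set C : Subgroup G := K ⊓ Subgroup.centralizer (A : Set G) with hC
  have hPK : P ≤ K := Subgroup.map_subtype_le _
  have hPp : IsPGroup p P := P₀.isPGroup'.map _
  have hcopP : (Nat.card A).Coprime (Nat.card P) :=
    Nat.Coprime.coprime_dvd_right (Subgroup.card_dvd_of_le hPK) hcop
  have hCK : C ≤ K := inf_le_left
  -- the index in P
  have hCP : C.relIndex P = p := by
    have h1 : C.relIndex P ∣ Nat.card P := Subgroup.relIndex_dvd_card _ _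
    obtain ⟨n, hn⟩ := IsPGroup.iff_card.1 hPp
    rw [hn, Nat.dvd_prime_pow hp] at h1
    obtain ⟨j, hj, hj'⟩ := h1
    have h2 : C.relIndex P ≤ p := by
      rw [← hidx]
      exact Subgroup.relIndex_le_of_le_right hPK (by rw [hidx]; exact hp.ne_zero)
    have h3 : j ≤ 1 := by
      by_contra h
      have : p ^ 2 ≤ p ^ j := Nat.pow_le_pow_right hp.pos (by omega)
      have h4 : p < p ^ 2 := by
        rw [pow_two]; nlinarith [hp.two_le]
      omega
    have h4 : j ≠ 0 := by
      rintro rfl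
      rw [pow_zero, Subgroup.relIndex_eq_one] at hj'
      have h5 := Subgroup.relIndex_mul_relIndex _ _ _ hj' hCK
      rw [hidx] at h5
      have h6 : p ∣ P.relIndex K := Dvd.intro_left _ h5
      have h7 : P.relIndex K = (P₀ : Subgroup K).index := by
        change (P.subgroupOf K).index = _
        rw [hP]
        congr 1
        exact Subgroup.comap_map_eq_self_of_injective K.subtype_injective _
      rw [h7] at h6
      exact P₀.not_dvd_index h6
    have : j = 1 := by omega
    rw [hj', this, pow_one]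
  have hCP' : (P ⊓ Subgroup.centralizer (A : Set G)).relIndex P = p := by
    have : P ⊓ Subgroup.centralizer (A : Set G) = C ⊓ P := by
      ext x
      simp only [hC, Subgroup.mem_inf]
      constructor
      · rintro ⟨h1, h2⟩; exact ⟨⟨hPK h1, h2⟩, h1⟩
      · rintro ⟨⟨_, h2⟩, h3⟩; exact ⟨h3, h2⟩
    rw [this, Subgroup.inf_relIndex_right, hCP]
  obtain ⟨hRcard, hRC⟩ := card_commutator_of_pgroup A P hP₀ hcopP p hPp hCP'
  set R : Subgroup G := ⁅P, A⁆ with hR
  have hRP : R ≤ P := Subgroup.le_normalizer_iff_commutator_le_left.1 hP₀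
  have hRK : R ≤ K := hRP.trans hPK
  -- K = R C
  have hcompl : Subgroup.IsComplement' (R.subgroupOf K) (C.subgroupOf K) := by
    apply Subgroup.isComplement'_of_card_mul_and_disjoint
    · rw [Nat.card_congr (Subgroup.subgroupOfEquivOfLe hRK).toEquiv, hRcard, ← hidx, mul_comm]
      exact (C.subgroupOf K).card_mul_index
    · rw [Subgroup.disjoint_def]
      intro x hx1 hx2
      have h1 : (x : G) ∈ R ⊓ Subgroup.centralizer (A : Set G) :=
        ⟨Subgroup.mem_subgroupOf.1 hx1, (Subgroup.mem_subgroupOf.1 hx2).2⟩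
      rw [hRC, Subgroup.mem_bot] at h1
      exact Subtype.ext h1
  have hKA : ⁅K, A⁆ = R := by
    apply le_antisymm
    · rw [Subgroup.commutator_le]
      intro k hk a ha
      obtain ⟨⟨⟨x, hx⟩, ⟨c, hc⟩⟩, hxc⟩ := (hcompl : Subgroup.IsComplement _ _).2 ⟨k, hk⟩
      have hxc' : (x : G) * (c : G) = k := congrArg Subtype.val hxc
      have hx' : (x : G) ∈ R := Subgroup.mem_subgroupOf.1 hx
      have hc' : (c : G) ∈ C := Subgroup.mem_subgroupOf.1 hc
      have hca : (c : G) * a * (c : G)⁻¹ = a :=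
        commute_conj_iff.2 ((Subgroup.mem_centralizer_iff.1 hc'.2) a ha).symm
      have h1 : ⁅k, a⁆ = ⁅(x : G), a⁆ := by
        rw [← hxc', commutatorElement_def, commutatorElement_def]
        calc (x : G) * c * a * ((x : G) * c)⁻¹ * a⁻¹ = x * (c * a * (c : G)⁻¹) * (x : G)⁻¹ * a⁻¹ := by group
          _ = x * a * (x : G)⁻¹ * a⁻¹ := by rw [hca]
      rw [h1]
      exact Subgroup.commutator_mem_commutator (hRP hx') ha
    · exact Subgroup.commutator_mono hPK le_rfl
  rw [hKA, hRcard]

end Cfsg.Agent.H91
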