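import Cfsg.Prelude.Def_Sporadic_a

set_option autoImplicit false

/-!
# Counting in a Steiner system S(5, 6, 12)
-/

namespace Cfsg.Agent.H91.Steiner12

open Cfsg

variable {α : Type*} [Fintype α] [DecidableEq α]

open Classical in
/-- the blocks as a finset -/
noncomputable def BF (B : Set (Finset α)) : Finset (Finset α) := Finset.univ.filter (fun c => c ∈ B)

theorem mem_BF {B : Set (Finset α)} {c : Finset α} : c ∈ BF B ↔ c ∈ B := by simp [BF]

open Classical in
/-- blocks over a set -/
noncomputable def ovr (B : Set (Finset α)) (s : Finset α) : Finset (Finset α) :=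
  (BF B).filter (fun c => s ⊆ c)

theorem mem_over {B : Set (Finset α)} {s c : Finset α} : c ∈ ovr B s ↔ c ∈ B ∧ s ⊆ c := by
  simp [ovr, mem_BF]

open Classical in
/-- blocks meeting `b` exactly in `s` -/
noncomputable def meet (B : Set (Finset α)) (b s : Finset α) : Finset (Finset α) :=
  (BF B).filter (fun c => b ∩ c = s)

theorem mem_meet {B : Set (Finset α)} {b s c : Finset α} : c ∈ meet B b s ↔ c ∈ B ∧ b ∩ c = s := by
  simp [meet, mem_BF]

theorem ncard_meet (B : Set (Finset α)) (b s : Finset α) :
    {c : Finset α | c ∈ B ∧ b ∩ c = s}.ncard = (meet B b s).card := by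
  rw [← Set.ncard_coe_finset]
  congr 1
  ext c
  rw [Finset.mem_coe, mem_meet]; rfl

/-- Double counting. -/
theorem card_over_step {B : Set (Finset α)} {k : ℕ} (hk : ∀ b ∈ B, b.card = k) (s : Finset α) :
    (ovr B s).card * (k - s.card) = ∑ p ∈ sᶜ, (ovr B (insert p s)).card := by
  classical
  have h := Finset.sum_card_bipartiteAbove_eq_sum_card_bipartiteBelow
    (s := ovr B s) (t := sᶜ) (fun o p => p ∈ o)
  have h1 : ∀ o ∈ ovr B s, (Finset.bipartiteAbove (fun o p => p ∈ o) sᶜ o).card
      = k - s.card := by
    intro o ho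
    rw [mem_over] at ho
    have : Finset.bipartiteAbove (fun o p => p ∈ o) sᶜ o = o \ s := by
      ext p; simp [Finset.bipartiteAbove, and_comm]
    rw [this, Finset.card_sdiff_of_subset ho.2, hk _ ho.1]
  have h2 : ∀ p ∈ sᶜ, (Finset.bipartiteBelow (fun o p => p ∈ o) (ovr B s) p).card
      = (ovr B (insert p s)).card := by
    intro p _
    congr 1
    ext o
    simp only [Finset.bipartiteBelow, Finset.mem_filter, mem_over, Finset.insert_subset_iff]
    tauto
  rw [Finset.sum_congr rfl h1, Finset.sum_congr rfl h2, Finset.sum_const, smul_eq_mul] at h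
  exact h

theorem card_over_top {B : Set (Finset α)} {t k : ℕ} (hB : IsSteinerSystem t k B) {s : Finset α}
    (hs : s.card = t) : (ovr B s).card = 1 := by
  obtain ⟨o, ho, huniq⟩ := hB.2 s hs
  rw [Finset.card_eq_one]
  refine ⟨o, ?_⟩
  ext o'
  rw [mem_over, Finset.mem_singleton]
  exact ⟨fun h => huniq o' h, fun h => h ▸ ho⟩

theorem card_over_aux {B : Set (Finset α)} {k : ℕ} (hk : ∀ b ∈ B, b.card = k) {s : Finset α}
    {i N M : ℕ} (hs : s.card = i) (hi : i < k)
    (hnext : ∀ t : Finset α, t.card = i + 1 → (ovr B t).card = N)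
    (hM : (Fintype.card α - i) * N = M * (k - i)) : (ovr B s).card = M := by
  have h := card_over_step hk s
  have h1 : ∀ p ∈ sᶜ, (ovr B (insert p s)).card = N := by
    intro p hp
    apply hnext
    rw [Finset.card_insert_of_notMem (Finset.mem_compl.1 hp), hs]
  rw [Finset.sum_congr rfl h1, Finset.sum_const, smul_eq_mul, Finset.card_compl,
    hs, hM] at h
  exact Nat.eq_of_mul_eq_mul_right (by omega) h

/-- The blocks over `s ⊆ b` sorted by their intersection with `b`. -/
theorem card_over_split (B : Set (Finset α)) {b s : Finset α} (hs : s ⊆ b) :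
    (ovr B s).card = ∑ u ∈ (b \ s).powerset, (meet B b (s ∪ u)).card := by
  classical
  rw [Finset.card_eq_sum_card_fiberwise (f := fun c => (b ∩ c) \ s) (t := (b \ s).powerset)]
  · apply Finset.sum_congr rfl
    intro u hu
    rw [Finset.mem_powerset] at hu
    congr 1
    ext c
    rw [Finset.mem_filter, mem_over, mem_meet]
    constructor
    · rintro ⟨⟨h1, h2⟩, h3⟩
      refine ⟨h1, ?_⟩
      rw [← h3, Finset.union_sdiff_of_subset (Finset.subset_inter hs h2)]
    · rintro ⟨h1, h2⟩
      refine ⟨⟨h1, ?_⟩, ?_⟩
      · have : s ⊆ b ∩ c := by rw [h2]; exact Finset.subset_union_left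
        exact this.trans Finset.inter_subset_right
      · rw [h2, Finset.union_sdiff_left]
        apply Finset.sdiff_eq_self_of_disjoint
        rw [Finset.disjoint_left]
        intro x hx
        exact (Finset.mem_sdiff.1 (hu hx)).2
  · intro c _
    rw [Finset.mem_coe, Finset.mem_powerset]
    exact Finset.sdiff_subset_sdiff Finset.inter_subset_left (Finset.Subset.refl s)

/-- Inversion step. -/
theorem card_meet_rec (B : Set (Finset α)) {b s : Finset α} (hs : s ⊆ b) (f : ℕ → ℕ) {R : ℕ}
    (hR : (ovr B s).card = R) (h0 : f 0 = (meet B b s).card)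
    (hf : ∀ t, s ⊆ t → t ⊆ b → s ≠ t → (meet B b t).card = f (t.card - s.card)) :
    R = ∑ m ∈ Finset.range (b.card - s.card + 1), (b.card - s.card).choose m * f m := by
  rw [← hR, card_over_split B hs, ← Finset.card_sdiff_of_subset hs]
  have h := Finset.sum_powerset_apply_card f (x := b \ s)
  simp only [smul_eq_mul] at h
  rw [← h]
  apply Finset.sum_congr rfl
  intro u hu
  rw [Finset.mem_powerset] at hu
  have hd : Disjoint s u := by
    rw [Finset.disjoint_right]
    intro x hx
    exact (Finset.mem_sdiff.1 (hu hx)).2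
  by_cases h1 : u = ∅
  · rw [h1, Finset.union_empty, Finset.card_empty, h0]
  · rw [hf (s ∪ u) Finset.subset_union_left (Finset.union_subset hs (hu.trans Finset.sdiff_subset)),
      Finset.card_union_of_disjoint hd, Nat.add_sub_cancel_left]
    intro h2
    apply h1
    rw [eq_comm, Finset.union_eq_left] at h2
    exact Finset.disjoint_self_iff_empty u |>.1 (hd.mono_left h2)

section

variable (hα : Fintype.card α = 12) {B : Set (Finset α)} (hB : IsSteinerSystem 5 6 B)
include hα hB

theorem over_five {s : Finset α} (hs : s.card = 5) : (ovr B s).card = 1 := card_over_top hB hs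
theorem over_four {s : Finset α} (hs : s.card = 4) : (ovr B s).card = 4 :=
  card_over_aux hB.1 hs (by decide) (fun _ h => over_five hα hB h) (by rw [hα])
theorem over_three {s : Finset α} (hs : s.card = 3) : (ovr B s).card = 12 :=
  card_over_aux hB.1 hs (by decide) (fun _ h => over_four hα hB h) (by rw [hα])
theorem over_two {s : Finset α} (hs : s.card = 2) : (ovr B s).card = 30 :=
  card_over_aux hB.1 hs (by decide) (fun _ h => over_three hα hB h) (by rw [hα])
theorem over_one {s : Finset α} (hs : s.card = 1) : (ovr B s).card = 66 :=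
  card_over_aux hB.1 hs (by decide) (fun _ h => over_two hα hB h) (by rw [hα])
theorem over_zero {s : Finset α} (hs : s.card = 0) : (ovr B s).card = 132 :=
  card_over_aux hB.1 hs (by decide) (fun _ h => over_one hα hB h) (by rw [hα])

theorem meet_six {b s : Finset α} (hb : b ∈ B) (hs : s ⊆ b) (h : s.card = 6) : (meet B b s).card = 1 := by
  have hsb : s = b := Finset.eq_of_subset_of_card_le hs (by rw [h, hB.1 b hb])
  rw [Finset.card_eq_one]
  refine ⟨b, ?_⟩
  ext c
  rw [mem_meet, Finset.mem_singleton, hsb]
  constructor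
  · rintro ⟨h1, h2⟩
    rw [Finset.inter_eq_left] at h2
    exact (Finset.eq_of_subset_of_card_le h2 (by rw [hB.1 b hb, hB.1 c h1])).symm
  · rintro rfl; exact ⟨hb, Finset.inter_self c⟩

/-- `meet` numbers as a function of the size -/
def M : ℕ → ℕ
  | 0 => 1
  | 1 => 0
  | 2 => 3
  | 3 => 2
  | 4 => 3
  | 5 => 0
  | _ => 1

omit [Fintype α] [DecidableEq α] hα hB in
theorem arith {s R : ℕ} (hs : s < 6) (hR : R = [132, 66, 30, 12, 4, 1].getD s 0) (f : ℕ → ℕ)
    (hf : ∀ m, 0 < m → m ≤ 6 - s → f m = M (s + m))
    (h : R = ∑ m ∈ Finset.range (6 - s + 1), (6 - s).choose m * f m) : f 0 = M s := by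
  rw [Finset.sum_range_succ'] at h
  have h2 : ∑ k ∈ Finset.range (6 - s), (6 - s).choose (k + 1) * f (k + 1) =
      ∑ k ∈ Finset.range (6 - s), (6 - s).choose (k + 1) * M (s + (k + 1)) := by
    apply Finset.sum_congr rfl
    intro k hk
    rw [Finset.mem_range] at hk
    rw [hf (k + 1) (by omega) (by omega)]
  rw [h2, Nat.choose_zero_right, one_mul] at h
  have h3 : ∀ s < 6, [132, 66, 30, 12, 4, 1].getD s 0 =
      ∑ k ∈ Finset.range (6 - s), (6 - s).choose (k + 1) * M (s + (k + 1)) + M s := by decide
  have h4 := h3 s hs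
  rw [← hR, h] at h4
  omega

theorem card_over {s : Finset α} (hs : s.card < 6) :
    (ovr B s).card = [132, 66, 30, 12, 4, 1].getD s.card 0 := by
  rcases (show s.card = 0 ∨ s.card = 1 ∨ s.card = 2 ∨ s.card = 3 ∨ s.card = 4 ∨ s.card = 5 by omega)
    with h | h | h | h | h | h
  · rw [h, over_zero hα hB h]; rfl
  · rw [h, over_one hα hB h]; rfl
  · rw [h, over_two hα hB h]; rfl
  · rw [h, over_three hα hB h]; rfl
  · rw [h, over_four hα hB h]; rfl
  · rw [h, over_five hα hB h]; rfl

/-- **The block intersection numbers.** -/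
theorem card_meet {b : Finset α} (hb : b ∈ B) : ∀ {s : Finset α}, s ⊆ b → (meet B b s).card = M s.card := by
  suffices ∀ n, ∀ s : Finset α, s ⊆ b → 6 - s.card = n → (meet B b s).card = M s.card by
    intro s hs; exact this _ s hs rfl
  have hb6 := hB.1 b hb
  intro n
  induction n using Nat.strong_induction_on with
  | _ n ih =>
    intro s hs hn
    have hle : s.card ≤ 6 := hb6 ▸ Finset.card_le_card hs
    rcases Nat.lt_or_ge s.card 6 with h6 | h6
    · set f : ℕ → ℕ := fun m => if m = 0 then (meet B b s).card else M (s.card + m) with hf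
      have h1 := card_meet_rec B hs f (card_over hα hB h6) (by simp [hf]) (by
        intro t h1 h2 h3
        have h4 : s.card < t.card := Finset.card_lt_card (Finset.ssubset_iff_subset_ne.2 ⟨h1, h3⟩)
        have h5 : t.card ≤ 6 := hb6 ▸ Finset.card_le_card h2
        rw [ih (6 - t.card) (by omega) t h2 rfl]
        simp only [hf]
        rw [if_neg (by omega)]
        congr 1
        omega)
      rw [hb6] at h1
      have h2 := arith h6 rfl f (by
        intro m h0 _
        simp only [hf]
        rw [if_neg (by omega)]) h1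
      simp only [hf, if_true] at h2
      exact h2
    · have h7 : s.card = 6 := by omega
      rw [meet_six hα hB hb hs h7, h7]; rfl

end

end Cfsg.Agent.H91.Steiner12
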