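import Cfsg.Prelude.Def_SporadicCombinatorics

set_option autoImplicit false

/-!
# The ternary code of length 12: an explicit systematic description
-/

namespace Cfsg.Agent.H91.Tern

open Cfsg

theorem mem_tetracode {t : Fin 4 → ZMod 3} :
    t ∈ tetracode ↔ ∃ a b : ZMod 3, t = ![b, a, a + b, a + 2 * b] := by
  unfold tetracode
  rw [Submodule.mem_span_pair]
  constructor
  · rintro ⟨a, b, rfl⟩
    refine ⟨a, b, ?_⟩
    funext i
    fin_cases i <;> simp [mul_comm]
  · rintro ⟨a, b, rfl⟩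
    refine ⟨a, b, ?_⟩
    funext i
    fin_cases i <;> simp [mul_comm]

theorem sum_zmod3 {M : Type*} [AddCommMonoid M] (f : ZMod 3 → M) : ∑ r : ZMod 3, f r = f 0 + f 1 + f 2 :=
  Fin.sum_univ_three f

/-- the defining conditions with given scalar `s` -/
def IsW (x : ArrayPt → ZMod 3) (s : ZMod 3) : Prop :=
  (∀ i : Fin 4, x (i, 0) + x (i, 1) + x (i, 2) = -s) ∧
    ∀ a b : ZMod 3, x (0, b) + x (1, a) + x (2, a + b) + x (3, a + 2 * b) = s

instance (x : ArrayPt → ZMod 3) (s : ZMod 3) : Decidable (IsW x s) := by unfold IsW; infer_instance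

theorem mem_code_iff {x : ArrayPt → ZMod 3} : x ∈ ternaryGolayCode ↔ ∃ s, IsW x s := by
  change IsTernaryGolayWord x ↔ _
  unfold IsTernaryGolayWord IsW
  apply exists_congr
  intro s
  apply and_congr
  · apply forall_congr'
    intro i
    rw [sum_zmod3]
  · constructor
    · intro h a b
      have := h ![b, a, a + b, a + 2 * b] (mem_tetracode.2 ⟨a, b, rfl⟩)
      rw [Fin.sum_univ_four] at this
      exact this
    · intro h t ht
      obtain ⟨a, b, rfl⟩ := mem_tetracode.1 ht
      rw [Fin.sum_univ_four]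
      exact h a b

/-- information symbols -/
abbrev U : Type := ZMod 3 × ZMod 3 × ZMod 3 × ZMod 3 × ZMod 3 × ZMod 3

/-- coordinates of a word as a list -/
def lst : U → List (ZMod 3)
  | (a, b, c, d, e, f) => [a, b, c, d, e, a + b + c - d - e, f, c - b - d + e + f, a - b + d - e + f,
      a - b - c - d - f, a + c + d + e - f, c - a - b - e - f]

/-- number of a position -/
def num (p : ArrayPt) : ℕ := 3 * p.1.val + p.2.val

/-- the word with given information symbols -/
def wd (u : U) : ArrayPt → ZMod 3 := fun p => (lst u).getD (num p) 0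

/-- the scalar of a word -/
def sc : U → ZMod 3
  | (a, b, c, _, _, _) => -(a + b + c)

/-- the information symbols of a word -/
def info (x : ArrayPt → ZMod 3) : U := (x (0, 0), x (0, 1), x (0, 2), x (1, 0), x (1, 1), x (2, 0))

theorem isW_wd : ∀ u : U, IsW (wd u) (sc u) := by decide +kernel

theorem wd_mem (u : U) : wd u ∈ ternaryGolayCode := mem_code_iff.2 ⟨_, isW_wd u⟩

theorem info_wd (u : U) : info (wd u) = u := rfl

theorem vanish_aux : ∀ A B C D E F s : ZMod 3, 0 + 0 + 0 = -s → 0 + 0 + A = -s → 0 + B + C = -s →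
    D + E + F = -s → 0 + 0 + 0 + D = s → 0 + 0 + B + F = s → 0 + 0 + C + E = s → 0 + 0 + B + E = s →
    0 + 0 + C + D = s → 0 + 0 + 0 + F = s → 0 + A + C + F = s → 0 + A + 0 + E = s → 0 + A + B + D = s →
    A = 0 ∧ B = 0 ∧ C = 0 ∧ D = 0 ∧ E = 0 ∧ F = 0 := by decide +kernel

theorem ext12 {x y : ArrayPt → ZMod 3} (h0 : x (0, 0) = y (0, 0)) (h1 : x (0, 1) = y (0, 1))
    (h2 : x (0, 2) = y (0, 2)) (h3 : x (1, 0) = y (1, 0)) (h4 : x (1, 1) = y (1, 1))
    (h5 : x (1, 2) = y (1, 2)) (h6 : x (2, 0) = y (2, 0)) (h7 : x (2, 1) = y (2, 1))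
    (h8 : x (2, 2) = y (2, 2)) (h9 : x (3, 0) = y (3, 0)) (h10 : x (3, 1) = y (3, 1))
    (h11 : x (3, 2) = y (3, 2)) : x = y := by
  funext p
  obtain ⟨i, r⟩ := p
  fin_cases i <;> fin_cases r <;> assumption

theorem eq_zero_of_info {x : ArrayPt → ZMod 3} (hx : x ∈ ternaryGolayCode) (h : info x = 0) : x = 0 := by
  obtain ⟨s, h1, h2⟩ := mem_code_iff.1 hx
  simp only [info, Prod.mk_eq_zero] at h
  obtain ⟨i0, i1, i2, i3, i4, i5⟩ := h
  have c0 : x (0, 0) + x (0, 1) + x (0, 2) = -s := h1 0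
  have c1 : x (1, 0) + x (1, 1) + x (1, 2) = -s := h1 1
  have c2 : x (2, 0) + x (2, 1) + x (2, 2) = -s := h1 2
  have c3 : x (3, 0) + x (3, 1) + x (3, 2) = -s := h1 3
  have e0 : x (0, 0) + x (1, 0) + x (2, 0) + x (3, 0) = s := h2 0 0
  have e1 : x (0, 1) + x (1, 0) + x (2, 1) + x (3, 2) = s := h2 0 1
  have e2 : x (0, 2) + x (1, 0) + x (2, 2) + x (3, 1) = s := h2 0 2
  have e3 : x (0, 0) + x (1, 1) + x (2, 1) + x (3, 1) = s := h2 1 0
  have e4 : x (0, 1) + x (1, 1) + x (2, 2) + x (3, 0) = s := h2 1 1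
  have e5 : x (0, 2) + x (1, 1) + x (2, 0) + x (3, 2) = s := h2 1 2
  have e6 : x (0, 0) + x (1, 2) + x (2, 2) + x (3, 2) = s := h2 2 0
  have e7 : x (0, 1) + x (1, 2) + x (2, 0) + x (3, 1) = s := h2 2 1
  have e8 : x (0, 2) + x (1, 2) + x (2, 1) + x (3, 0) = s := h2 2 2
  rw [i0, i1, i2] at c0
  rw [i3, i4] at c1
  rw [i5] at c2
  rw [i0, i3, i5] at e0
  rw [i1, i3] at e1
  rw [i2, i3] at e2
  rw [i0, i4] at e3
  rw [i1, i4] at e4
  rw [i2, i4, i5] at e5
  rw [i0] at e6
  rw [i1, i5] at e7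
  rw [i2] at e8
  obtain ⟨j0, j1, j2, j3, j4, j5⟩ := vanish_aux _ _ _ _ _ _ s c0 c1 c2 c3 e0 e1 e2 e3 e4 e5 e6 e7 e8
  exact ext12 i0 i1 i2 i3 i4 j0 i5 j1 j2 j3 j4 j5

theorem info_sub (x y : ArrayPt → ZMod 3) : info (x - y) = info x - info y := rfl

theorem eq_of_info {x y : ArrayPt → ZMod 3} (hx : x ∈ ternaryGolayCode) (hy : y ∈ ternaryGolayCode)
    (h : info x = info y) : x = y := by
  have := eq_zero_of_info (ternaryGolayCode.sub_mem hx hy) (by rw [info_sub, h, sub_self])
  exact sub_eq_zero.1 this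

theorem eq_wd {x : ArrayPt → ZMod 3} (hx : x ∈ ternaryGolayCode) : x = wd (info x) :=
  eq_of_info hx (wd_mem _) (info_wd _).symm

theorem wd_injective : Function.Injective wd := fun u v h => by
  rw [← info_wd u, h, info_wd]

/-- the code is in bijection with the information symbols -/
def codeEquiv : U ≃ ternaryGolayCode where
  toFun u := ⟨wd u, wd_mem u⟩
  invFun x := info x.1
  left_inv u := info_wd u
  right_inv x := Subtype.ext (eq_wd x.2).symm

theorem card_code : Nat.card ternaryGolayCode = 729 := by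
  rw [← Nat.card_congr codeEquiv, Nat.card_eq_fintype_card]
  simp only [Fintype.card_prod, ZMod.card]

/-- the weight of the word with given information symbols -/
abbrev wt (u : U) : ℕ := (ternarySupport (wd u)).card

theorem wt_cases : ∀ u : U, u ≠ 0 → wt u = 6 ∨ wt u = 9 ∨ wt u = 12 := by decide +kernel

theorem card_wt6 : ((Finset.univ : Finset U).filter (fun u => wt u = 6)).card = 264 := by decide +kernel
theorem card_wt9 : ((Finset.univ : Finset U).filter (fun u => wt u = 9)).card = 440 := by decide +kernel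
theorem card_wt12 : ((Finset.univ : Finset U).filter (fun u => wt u = 12)).card = 24 := by decide +kernel

theorem ncard_wt (k : ℕ) : {x : ArrayPt → ZMod 3 | x ∈ ternaryGolayCode ∧ (ternarySupport x).card = k}.ncard =
    ((Finset.univ : Finset U).filter (fun u => wt u = k)).card := by
  rw [← Set.ncard_coe_finset]
  symm
  apply Set.ncard_congr (fun u _ => wd u)
  · intro u hu
    rw [Finset.mem_coe, Finset.mem_filter] at hu
    exact ⟨wd_mem u, hu.2⟩
  · intro u v _ _ h; exact wd_injective h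
  · rintro x ⟨hx, hk⟩
    refine ⟨info x, ?_, (eq_wd hx).symm⟩
    rw [Finset.mem_coe, Finset.mem_filter]
    refine ⟨Finset.mem_univ _, ?_⟩
    change (ternarySupport (wd (info x))).card = k
    rw [← eq_wd hx, hk]

theorem weight_cases {x : ArrayPt → ZMod 3} (hx : x ∈ ternaryGolayCode) (h0 : x ≠ 0) :
    (ternarySupport x).card = 6 ∨ (ternarySupport x).card = 9 ∨ (ternarySupport x).card = 12 := by
  have h1 : info x ≠ 0 := fun h => h0 (eq_zero_of_info hx h)
  have h2 := wt_cases _ h1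
  change (ternarySupport (wd (info x))).card = 6 ∨ (ternarySupport (wd (info x))).card = 9 ∨
    (ternarySupport (wd (info x))).card = 12 at h2
  rwa [← eq_wd hx] at h2

end Cfsg.Agent.H91.Tern
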