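import Cfsg.Agent.H91.TernHex

set_option autoImplicit false

/-!
# The monomial automorphism group of the ternary code of length 12
-/

namespace Cfsg.Agent.H91.Tern

open Cfsg
open scoped Pointwise

/-- the positions in order -/
def posL : List ArrayPt := [(0, 0), (0, 1), (0, 2), (1, 0), (1, 1), (1, 2), (2, 0), (2, 1), (2, 2),
  (3, 0), (3, 1), (3, 2)]

/-- position with a given number -/
def pos (n : ℕ) : ArrayPt := posL.getD n (0, 0)

theorem pos_num : ∀ p : ArrayPt, pos (num p) = p := by decide +kernel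

/-- a digit of a packed table -/
def digit (t n : ℕ) : ℕ := Nat.land (Nat.shiftRight t (Nat.mul 4 n)) 15

/-- the map given by a packed table -/
def tf (t : ℕ) (p : ArrayPt) : ArrayPt := pos (digit t (num p))

/-- sign given by a mask -/
def sg (c : ℕ) (p : ArrayPt) : ZMod 3 := if c.testBit (num p) then -1 else 1

/-- basis of the information space -/
def basU : List U := [(1, 0, 0, 0, 0, 0), (0, 1, 0, 0, 0, 0), (0, 0, 1, 0, 0, 0), (0, 0, 0, 1, 0, 0),
  (0, 0, 0, 0, 1, 0), (0, 0, 0, 0, 0, 1)]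

/-- monomial maps preserving the code -/
def Pres (σ : Equiv.Perm ArrayPt) (c : ArrayPt → (ZMod 3)ˣ) : Prop :=
  ∀ x ∈ ternaryGolayCode, monomialMap σ c x ∈ ternaryGolayCode

theorem monomialMap_add (σ : Equiv.Perm ArrayPt) (c : ArrayPt → (ZMod 3)ˣ) (x y : ArrayPt → ZMod 3) :
    monomialMap σ c (x + y) = monomialMap σ c x + monomialMap σ c y := by
  funext p; simp [monomialMap, mul_add]

theorem monomialMap_smul (σ : Equiv.Perm ArrayPt) (c : ArrayPt → (ZMod 3)ˣ) (a : ZMod 3)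
    (x : ArrayPt → ZMod 3) : monomialMap σ c (a • x) = a • monomialMap σ c x := by
  funext p; simp [monomialMap, mul_left_comm]

theorem wd_eq_sum (a b c d e f : ZMod 3) : wd (a, b, c, d, e, f) =
    a • wd (1, 0, 0, 0, 0, 0) + b • wd (0, 1, 0, 0, 0, 0) + c • wd (0, 0, 1, 0, 0, 0) +
      d • wd (0, 0, 0, 1, 0, 0) + e • wd (0, 0, 0, 0, 1, 0) + f • wd (0, 0, 0, 0, 0, 1) := by
  apply eq_of_info (wd_mem _)
  · have h := fun a u => ternaryGolayCode.smul_mem a (wd_mem u)
    exact ternaryGolayCode.add_mem (ternaryGolayCode.add_mem (ternaryGolayCode.add_mem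
      (ternaryGolayCode.add_mem (ternaryGolayCode.add_mem (h _ _) (h _ _)) (h _ _)) (h _ _)) (h _ _)) (h _ _)
  · change (a, b, c, d, e, f) = (a * 1 + b * 0 + c * 0 + d * 0 + e * 0 + f * 0,
      a * 0 + b * 1 + c * 0 + d * 0 + e * 0 + f * 0,
      a * 0 + b * 0 + c * 1 + d * 0 + e * 0 + f * 0,
      a * 0 + b * 0 + c * 0 + d * 1 + e * 0 + f * 0,
      a * 0 + b * 0 + c * 0 + d * 0 + e * 1 + f * 0,
      a * 0 + b * 0 + c * 0 + d * 0 + e * 0 + f * 1)
    simp

theorem pres_of_basis {σ : Equiv.Perm ArrayPt} {c : ArrayPt → (ZMod 3)ˣ}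
    (h : ∀ u ∈ basU, monomialMap σ c (wd u) ∈ ternaryGolayCode) : Pres σ c := by
  intro x hx
  rw [eq_wd hx]
  generalize info x = u
  obtain ⟨a, b, c', d, e, f⟩ := u
  rw [wd_eq_sum]
  simp only [monomialMap_add, monomialMap_smul]
  have h' := fun a u hu => ternaryGolayCode.smul_mem a (h u hu)
  exact ternaryGolayCode.add_mem (ternaryGolayCode.add_mem (ternaryGolayCode.add_mem
    (ternaryGolayCode.add_mem (ternaryGolayCode.add_mem (h' _ _ (by simp [basU])) (h' _ _ (by simp [basU])))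
      (h' _ _ (by simp [basU]))) (h' _ _ (by simp [basU]))) (h' _ _ (by simp [basU]))) (h' _ _ (by simp [basU]))

/-- validity of a table entry -/
def Chk (e : ℕ × ℕ × ℕ) : Prop :=
  (∀ p, tf e.2.1 (tf e.1 p) = p ∧ tf e.1 (tf e.2.1 p) = p) ∧
    ∀ u ∈ basU, ∃ s, IsW (fun p => sg e.2.2 p * wd u (tf e.2.1 p)) s

instance (e : ℕ × ℕ × ℕ) : Decidable (Chk e) := by unfold Chk; infer_instance

/-- signs as units -/
def sgu (c : ℕ) (p : ArrayPt) : (ZMod 3)ˣ := if c.testBit (num p) then -1 else 1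

theorem coe_sgu (c : ℕ) (p : ArrayPt) : (sgu c p : ZMod 3) = sg c p := by
  unfold sgu sg; split_ifs <;> rfl

/-- `σ` is the permutation part of a monomial automorphism. -/
def InP (σ : Equiv.Perm ArrayPt) : Prop := ∃ c, Pres σ c

theorem exists_of_chk {e : ℕ × ℕ × ℕ} (h : Chk e) : ∃ σ : Equiv.Perm ArrayPt, InP σ ∧ ∀ p, σ p = tf e.1 p := by
  let σ : Equiv.Perm ArrayPt := ⟨tf e.1, tf e.2.1, fun p => (h.1 p).1, fun p => (h.1 p).2⟩
  refine ⟨σ, ⟨sgu e.2.2, ?_⟩, fun _ => rfl⟩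
  apply pres_of_basis
  intro u hu
  obtain ⟨s, hs⟩ := h.2 u hu
  rw [mem_code_iff]
  refine ⟨s, ?_⟩
  have : monomialMap σ (sgu e.2.2) (wd u) = fun p => sg e.2.2 p * wd u (tf e.2.1 p) := by
    funext p
    unfold monomialMap
    rw [coe_sgu]; rfl
  rw [this]; exact hs

theorem InP.mul {σ τ : Equiv.Perm ArrayPt} (hσ : InP σ) (hτ : InP τ) : InP (σ * τ) := by
  obtain ⟨c, hc⟩ := hσ
  obtain ⟨d, hd⟩ := hτ
  refine ⟨fun i => c i * d (σ.symm i), fun x hx => ?_⟩
  have h := hc _ (hd x hx)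
  have : monomialMap (σ * τ) (fun i => c i * d (σ.symm i)) x = monomialMap σ c (monomialMap τ d x) := by
    funext p
    unfold monomialMap
    rw [Units.val_mul, mul_assoc]; rfl
  rw [this]; exact h

theorem inP_one : InP 1 := ⟨fun _ => 1, fun x hx => by
  have : monomialMap 1 (fun _ => (1 : (ZMod 3)ˣ)) x = x := by
    funext p
    unfold monomialMap
    rw [Units.val_one, one_mul]; rfl
  rw [this]; exact hx⟩

/-- table of monomial automorphisms -/
def tabE : List (ℕ × ℕ × ℕ) := [(0xba9876543210, 0xba9876543210, 0x0), (0x687a9b543201, 0x687a9b543201, 0x0), (0x9ba768543102, 0xa9b687543021, 0x0), (0xb9867a542103, 0xb6a978540321, 0xacc), (0x87ba96532104, 0x987ba6504321, 0x794), (0xab7869432105, 0xab6897054321, 0xd64), (0xb8a745932106, 0xb95a80674321, 0x9d2), (0x65498ab32107, 0x56870ba94321, 0xc1e), (0x5964b7a32108, 0x75a069b84321, 0x4c8), (0x7a8b54632109, 0x8a09b5764321, 0xea2), (0x46957b83210a, 0x60957a8b4321, 0xb08), (0x9456a873210b, 0x7b6589a4321,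 0x1ae), (0x876ba9543120, 0x876ba9543120, 0x0), (0xa6798b542130, 0x6b879a541320, 0xacc), (0x6a97b8532140, 0x7a968b514320, 0x794), (0x986b7a432150, 0x86ba79154320, 0xd64), (0x5748ab932160, 0x6758a1b94320, 0x9d2), (0xa98546b32170, 0x5ba916874320, 0xc1e), (0x74b965a32180, 0x9581b76a4320, 0x4c8), (0x4b5a87632190, 0xa817659b4320, 0xea2), (0xb576948321a0, 0xb17598a64320, 0xb08), (0x86a4597321b0, 0x196b5a784320, 0x1ae), (0x98ba67542310, 0x98ba67542310, 0xacc), (0x7b86a9532410, 0xa769b8524310, 0x794), (0xb7a986432510, 0xb987a6254310, 0xd64), (0x8ab574932610, 0x9a5b72864310, 0x9d2), (0x546a98b32710, 0x587629ba4310, 0xc1e), (0x96574ba32810, 0x65b28a974310, 0x4c8), (0xa874b5632910, 0x7b2a95684310, 0xea2), (0x694b57832a10, 0x82a56b794310, 0xb08), (0x45986a732b10, 0x269857ab4310, 0x1ae), (0x867b9a534210, 0x867b9a534210, 0x0), (0xa9b768435210, 0x9ba687354210, 0x0), (0xb58a47936210, 0xb85963a74210, 0x6), (0x6a5489b37210, 0x5a673b984210, 0xffa), (0x5796b4a38210,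 0x7593a8b64210, 0xffc), (0x74a85b639210, 0x6938b57a4210, 0x6), (0x4b697583a210, 0xa385796b4210, 0xffc), (0x9845a673b210, 0x37ba56894210, 0xffa), (0x786ab9453210, 0x786ab9453210, 0x0), (0xa74b85963210, 0x8b57a4693210, 0x6), (0x49865ab73210, 0x56a9487b3210, 0xffa), (0x64b597a83210, 0x95746b8a3210, 0xffc), (0x8b57a4693210, 0xa74b85963210, 0x6), (0x95746b8a3210, 0x64b597a83210, 0xffc), (0x56a9487b3210, 0x49865ab73210, 0xffa)]

theorem levels : ∀ k : Fin 5, ∀ p : ArrayPt, (∀ i : Fin 5, i < k → p ≠ pos i) →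
    ∃ e ∈ tabE, tf e.1 (pos k) = p ∧ (∀ i : Fin 5, i < k → tf e.1 (pos i) = pos i) ∧ Chk e := by
  decide +kernel

theorem exists_inP (y : Fin 5 → ArrayPt) (hy : Function.Injective y) :
    ∀ k : ℕ, k ≤ 5 → ∃ σ, InP σ ∧ ∀ i : Fin 5, (i : ℕ) < k → σ (pos i) = y i := by
  intro k
  induction k with
  | zero => intro _; exact ⟨1, inP_one, fun i hi => absurd hi (Nat.not_lt_zero _)⟩
  | succ k ih =>
    intro hk
    obtain ⟨σ, hσ, h1⟩ := ih (by omega)
    let kk : Fin 5 := ⟨k, by omega⟩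
    obtain ⟨e, _, h2, h3, h4⟩ := levels kk (σ⁻¹ (y kk)) (by
      intro i hi heq
      have h5 : y kk = σ (pos i) := by rw [← heq]; simp
      rw [h1 i hi] at h5
      exact absurd (hy h5) (ne_of_gt hi))
    obtain ⟨τ, hτ, h5⟩ := exists_of_chk h4
    refine ⟨σ * τ, hσ.mul hτ, ?_⟩
    intro i hi
    rw [Equiv.Perm.mul_apply, h5]
    rcases Nat.lt_succ_iff_lt_or_eq.1 hi with h6 | h6
    · rw [h3 i h6, h1 i h6]
    · have : i = kk := Fin.ext h6
      rw [this, h2]; simp

/-- the five base points -/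
def bs (i : Fin 5) : ArrayPt := pos i

theorem exists_inP_five (y : Fin 5 → ArrayPt) (hy : Function.Injective y) :
    ∃ σ, InP σ ∧ ∀ i : Fin 5, σ (bs i) = y i := by
  obtain ⟨σ, h1, h2⟩ := exists_inP y hy 5 le_rfl
  exact ⟨σ, h1, fun i => h2 i i.2⟩

/-! ### Automorphisms of the hexad system -/

theorem mem_aut {σ : Equiv.Perm ArrayPt} : σ ∈ setSystemAut hexads ↔ ∀ h ∈ hexads, σ • h ∈ hexads := by
  rw [MulAction.mem_stabilizer_iff]
  constructor
  · intro h s hs
    rw [← h]; exact Set.smul_mem_smul_set hs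
  · intro h
    apply Set.eq_of_subset_of_ncard_le
    · rintro _ ⟨s, hs, rfl⟩; exact h s hs
    · rw [Set.ncard_smul_set]
    · exact Set.toFinite _

theorem supp_monomialMap (σ : Equiv.Perm ArrayPt) (c : ArrayPt → (ZMod 3)ˣ) (x : ArrayPt → ZMod 3) :
    ternarySupport (monomialMap σ c x) = σ • ternarySupport x := by
  ext p
  rw [mem_supp, ← Finset.inv_smul_mem_iff, mem_supp]
  unfold monomialMap
  rw [ne_eq, mul_eq_zero, not_or]
  constructor
  · rintro ⟨_, h⟩; exact h
  · intro h; exact ⟨(c p).ne_zero, h⟩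

theorem InP.mem_aut {σ : Equiv.Perm ArrayPt} (h : InP σ) : σ ∈ setSystemAut hexads := by
  obtain ⟨c, hc⟩ := h
  rw [Tern.mem_aut]
  rintro _ ⟨x, hx, rfl, h6⟩
  refine ⟨monomialMap σ c x, hc x hx, supp_monomialMap σ c x, ?_⟩
  rw [Finset.card_smul_finset, h6]

/-- 4-subsets of the first hexad and the corresponding pairing of the other points -/
def synL : List (ℕ × ℕ) := [(0xf, 0x786ab9543210), (0x17, 0x6789ab543210), (0x27, 0x867b9a543210), (0x1b, 0xab7698543210), (0x2b, 0x69a78b543210), (0x33, 0x98ba67543210), (0x1d, 0x96b78a543210), (0x2d, 0xab8967543210), (0x35, 0x79a6b8543210), (0x39, 0x876ba9543210), (0x1e, 0x89ab67543210), (0x2e, 0x97b6a8543210), (0x36, 0xab6789543210), (0x3a, 0x7689ba543210), (0x3c, 0x687a9b543210)]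

/-- information symbols of the hexads used -/
def hexL : List U := [(1, 2, 2, 2, 0, 2), (1, 2, 1, 1, 0, 0), (1, 1, 2, 1, 0, 0), (1, 1, 2, 0, 1, 1), (1, 2, 2, 0, 2, 0), (1, 2, 1, 0, 1, 0), (1, 2, 1, 0, 0, 1), (1, 1, 2, 0, 0, 0), (1, 2, 2, 0, 0, 0), (1, 2, 0, 1, 2, 1), (1, 1, 0, 1, 1, 0), (1, 2, 0, 2, 1, 0), (1, 1, 0, 1, 0, 2), (1, 2, 0, 2, 0, 0), (1, 2, 0, 1, 0, 0), (1, 2, 0, 0, 1, 2), (1, 1, 0, 0, 1, 0), (1, 2, 0, 0, 2, 0), (1, 0, 1, 1, 1, 2), (1, 0, 2, 2, 1, 0), (1, 0, 2, 1, 2, 0), (1, 0, 2, 1, 0, 1), (1, 0, 1, 1, 0, 0), (1, 0, 2, 2, 0, 0), (1, 0, 2, 0, 2, 2), (1, 0, 1, 0, 1, 0), (1, 0, 2, 0, 1, 0), (1, 0, 0, 2, 1, 1), (1, 0, 0, 1, 2, 0), (1, 0, 0, 1, 1, 0), (0, 1, 2, 1, 2, 2), (0, 1, 1, 1, 1, 0), (0, 1, 2, 2, 1, 0), (0, 1, 2, 2, 0, 1), (0, 1, 1, 1, 0, 0), (0, 1, 2, 1, 0, 0), (0, 1, 1, 0, 1, 2), (0, 1, 2, 0, 1, 0), (0, 1, 2, 0, 2, 0), (0, 1, 0, 1, 1, 1), (0, 1, 0, 2, 1, 0), (0, 1, 0, 1, 2, 0), (0, 0, 1, 1, 2, 1), (0, 0, 1, 1, 1, 0), (0, 0, 1,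 2, 1, 0)]

/-- information symbols of the first hexad -/
def hexL0 : List U := [(1, 1, 1, 2, 2, 0)]

/-- set with given mask -/
def setOf (m : ℕ) : Finset ArrayPt := Finset.univ.filter (fun p => m.testBit (num p) = true)

theorem syn_check : ∀ j ∈ synL, ∀ p : ArrayPt, ¬ num p < 6 →
    (∃ u ∈ hexL, ternarySupport (wd u) = insert p (insert (tf j.2 p) (setOf j.1))) ∧
      tf j.2 p ≠ p ∧ ¬ num (tf j.2 p) < 6 := by
  decide +kernel

theorem syn_sets : ∀ j ∈ synL, (setOf j.1).card = 4 ∧ ∀ q ∈ setOf j.1, num q < 6 := by decide +kernel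

theorem syn_sep : ∀ p q : ArrayPt, ¬ num p < 6 → ¬ num q < 6 → p ≠ q →
    ∃ i ∈ synL, ∃ j ∈ synL, tf i.2 p = tf j.2 p ∧ tf i.2 q ≠ tf j.2 q := by
  decide +kernel

theorem base_check : (∃ u ∈ hexL0, ternarySupport (wd u) = setOf 63) ∧ (setOf 63).card = 6 ∧
    (setOf 31).card = 5 ∧ setOf 31 ⊆ setOf 63 ∧ ∀ p : ArrayPt, num p < 6 → p ∈ setOf 63 := by
  decide +kernel

theorem base_small : ∀ p : ArrayPt, num p < 6 → (∃ i : Fin 5, p = bs i) ∨ p = pos 5 := by decide +kernel

theorem bs_mem : ∀ i : Fin 5, bs i ∈ setOf 31 := by decide +kernel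

theorem mem_bs : ∀ p ∈ setOf 31, ∃ i : Fin 5, p = bs i := by decide +kernel

theorem setOf63_eq : setOf 63 = insert (pos 5) (setOf 31) := by decide +kernel

theorem setOf63_lt : ∀ p : ArrayPt, p ∈ setOf 63 ↔ num p < 6 := by decide +kernel

theorem hexads_of_supp {u : U} {h : Finset ArrayPt} (hu : ternarySupport (wd u) = h) (h6 : h.card = 6) :
    h ∈ hexads := ⟨wd u, wd_mem u, hu, h6⟩

theorem smul_eq_self {σ : Equiv.Perm ArrayPt} {s : Finset ArrayPt} (h : ∀ p ∈ s, σ p = p) : σ • s = s := by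
  apply Finset.eq_of_subset_of_card_le
  · intro p hp
    rw [Finset.mem_smul_finset] at hp
    obtain ⟨q, hq, rfl⟩ := hp
    change σ q ∈ s
    rw [h q hq]; exact hq
  · rw [Finset.card_smul_finset]

/-- Automorphisms of the hexad system fixing the five base points are trivial. -/
theorem aut_trivial {σ : Equiv.Perm ArrayPt} (hσ : σ ∈ setSystemAut hexads) (h : ∀ i, σ (bs i) = bs i) :
    σ = 1 := by
  rw [mem_aut] at hσ
  -- the first hexad is fixed
  have hH : setOf 63 ∈ hexads := by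
    obtain ⟨⟨u, _, hu⟩, h6, _⟩ := base_check
    exact hexads_of_supp hu h6
  have h31 : σ • setOf 31 = setOf 31 := by
    apply smul_eq_self
    intro p hp
    obtain ⟨i, rfl⟩ := mem_bs p hp
    exact h i
  have hH' : σ • setOf 63 = setOf 63 := by
    apply hexad_eq (hσ _ hH) hH
    have h1 : setOf 31 ⊆ σ • setOf 63 ∩ setOf 63 := by
      apply Finset.subset_inter
      · conv_lhs => rw [← h31]
        exact Finset.smul_finset_subset_smul_finset base_check.2.2.2.1
      · exact base_check.2.2.2.1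
    have := Finset.card_le_card h1
    rw [base_check.2.2.1] at this
    exact this
  have h5 : σ (pos 5) = pos 5 := by
    have h1 : σ (pos 5) ∈ setOf 63 := by
      rw [← hH', Finset.mem_smul_finset]
      exact ⟨pos 5, by rw [setOf63_eq]; simp, rfl⟩
    rcases base_small _ ((setOf63_lt _).1 h1) with ⟨i, hi⟩ | hi
    · exfalso
      have h2 : σ (pos 5) = σ (bs i) := by rw [h i, hi]
      have h3 := σ.injective h2
      have h4 := bs_mem i
      rw [← h3] at h4
      revert h4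
      decide +kernel
    · exact hi
  have hin : ∀ p, num p < 6 → σ p = p := by
    intro p hp
    rcases base_small p hp with ⟨i, rfl⟩ | rfl
    · exact h i
    · exact h5
  have hout : ∀ p, ¬ num p < 6 → ¬ num (σ p) < 6 := by
    intro p hp hlt
    have h1 := hin _ hlt
    have h2 := σ.injective h1
    rw [h2] at hlt
    exact hp hlt
  -- `σ` commutes with the pairings
  have hcomm : ∀ j ∈ synL, ∀ p, ¬ num p < 6 → σ (tf j.2 p) = tf j.2 (σ p) := by
    intro j hj p hp
    obtain ⟨⟨u, _, hu⟩, h1, h2⟩ := syn_check j hj p hp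
    obtain ⟨⟨v, _, hv⟩, h3, h4⟩ := syn_check j hj (σ p) (hout p hp)
    obtain ⟨h7, h8⟩ := syn_sets j hj
    have card6 : ∀ q, ¬ num q < 6 → tf j.2 q ≠ q → ¬ num (tf j.2 q) < 6 →
        (insert q (insert (tf j.2 q) (setOf j.1))).card = 6 := by
      intro q h1 h2 h3
      rw [Finset.card_insert_of_notMem, Finset.card_insert_of_notMem, h7]
      · intro h; exact h3 (h8 _ h)
      · rw [Finset.mem_insert, not_or]
        exact ⟨h2.symm, fun h => h1 (h8 _ h)⟩
    have e1 := hexads_of_supp hu (card6 p hp h1 h2)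
    have e2 := hexads_of_supp hv (card6 (σ p) (hout p hp) h3 h4)
    have e3 : σ • setOf j.1 = setOf j.1 := smul_eq_self fun q hq => hin q (h8 q hq)
    have e4 : σ • (insert p (insert (tf j.2 p) (setOf j.1))) =
        insert (σ p) (insert (σ (tf j.2 p)) (setOf j.1)) := by
      rw [Finset.smul_finset_insert, Finset.smul_finset_insert, e3]; rfl
    have e5 := hσ _ e1
    rw [e4] at e5
    have e6 : insert (σ p) (insert (σ (tf j.2 p)) (setOf j.1)) =
        insert (σ p) (insert (tf j.2 (σ p)) (setOf j.1)) := by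
      apply hexad_eq e5 e2
      have e7 : insert (σ p) (setOf j.1) ⊆ (insert (σ p) (insert (σ (tf j.2 p)) (setOf j.1))) ∩
          (insert (σ p) (insert (tf j.2 (σ p)) (setOf j.1))) := by
        apply Finset.subset_inter
        · exact Finset.insert_subset_insert _ (Finset.subset_insert _ _)
        · exact Finset.insert_subset_insert _ (Finset.subset_insert _ _)
      have e8 := Finset.card_le_card e7
      rw [Finset.card_insert_of_notMem (fun h => hout p hp (h8 _ h)), h7] at e8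
      exact e8
    have e7 : σ (tf j.2 p) ∈ insert (σ p) (insert (tf j.2 (σ p)) (setOf j.1)) := by
      rw [← e6]; simp
    rw [Finset.mem_insert, Finset.mem_insert] at e7
    rcases e7 with e7 | e7 | e7
    · exact absurd (σ.injective e7) h1
    · exact e7
    · exact absurd (h8 _ e7) (hout _ h2)
  ext p : 1
  rw [Equiv.Perm.one_apply]
  by_cases hp : num p < 6
  · exact hin p hp
  · by_contra hne
    obtain ⟨i, hi, j, hj, h1, h2⟩ := syn_sep p (σ p) hp (hout p hp) (Ne.symm hne)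
    apply h2
    rw [← hcomm i hi p hp, ← hcomm j hj p hp, h1]

/-- The permutation parts are exactly the automorphisms of the hexad system. -/
theorem inP_iff {σ : Equiv.Perm ArrayPt} : InP σ ↔ σ ∈ setSystemAut hexads := by
  constructor
  · exact InP.mem_aut
  · intro h
    have hinj : Function.Injective bs := by decide +kernel
    obtain ⟨τ, h1, h2⟩ := exists_inP_five (fun i => σ (bs i)) (σ.injective.comp hinj)
    have h3 : τ⁻¹ * σ = 1 := by
      apply aut_trivial
      · exact mul_mem (inv_mem h1.mem_aut) h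
      · intro i
        rw [Equiv.Perm.mul_apply, ← h2 i]
        simp
    have h4 : σ = τ := by
      rw [inv_mul_eq_one] at h3
      exact h3.symm
    rw [h4]; exact h1

/-- **The automorphism group of the hexad system has order 95040.** -/
theorem card_aut : Nat.card (setSystemAut hexads) = 95040 := by
  have hinj : Function.Injective bs := by decide +kernel
  let f : setSystemAut hexads → (Fin 5 ↪ ArrayPt) := fun σ => ⟨fun i => σ.1 (bs i), σ.1.injective.comp hinj⟩
  have hf : Function.Bijective f := by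
    constructor
    · intro σ τ h
      have h1 : ∀ i, σ.1 (bs i) = τ.1 (bs i) := fun i => DFunLike.congr_fun h i
      have h2 : τ.1⁻¹ * σ.1 = 1 := by
        apply aut_trivial (mul_mem (inv_mem τ.2) σ.2)
        intro i
        rw [Equiv.Perm.mul_apply, h1 i]
        simp
      rw [inv_mul_eq_one] at h2
      exact Subtype.ext h2.symm
    · intro y
      obtain ⟨τ, h1, h2⟩ := exists_inP_five y y.injective
      refine ⟨⟨τ, h1.mem_aut⟩, ?_⟩
      apply DFunLike.ext
      intro i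
      exact h2 i
  rw [Nat.card_eq_of_bijective f hf, Nat.card_eq_fintype_card, Fintype.card_embedding_eq, card_pt,
    Fintype.card_fin]
  rfl

/-- two sign vectors for the same permutation differ by a global sign -/
theorem pres_sign {σ : Equiv.Perm ArrayPt} {c d : ArrayPt → (ZMod 3)ˣ} (hc : Pres σ c) (hd : Pres σ d) :
    ∀ p q, d p * (c p)⁻¹ = d q * (c q)⁻¹ := by
  have hsurj : ∀ y ∈ ternaryGolayCode, ∃ x ∈ ternaryGolayCode, monomialMap σ c x = y := by
    let f : ternaryGolayCode → ternaryGolayCode := fun x => ⟨monomialMap σ c x.1, hc x.1 x.2⟩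
    have hf : Function.Injective f := by
      intro x y h
      have h1 : monomialMap σ c x.1 = monomialMap σ c y.1 := congrArg Subtype.val h
      apply Subtype.ext
      funext p
      have h2 := congrFun h1 (σ p)
      unfold monomialMap at h2
      rw [Equiv.symm_apply_apply] at h2
      exact mul_left_cancel₀ (c (σ p)).ne_zero h2
    have hf' := Finite.surjective_of_injective hf
    intro y hy
    obtain ⟨x, hx⟩ := hf' ⟨y, hy⟩
    exact ⟨x.1, x.2, congrArg Subtype.val hx⟩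
  apply diag_const (c := fun p => d p * (c p)⁻¹)
  intro y hy
  obtain ⟨x, hx, rfl⟩ := hsurj y hy
  have : monomialMap 1 (fun p => d p * (c p)⁻¹) (monomialMap σ c x) = monomialMap σ d x := by
    funext p
    unfold monomialMap
    change ((d p * (c p)⁻¹ : (ZMod 3)ˣ) : ZMod 3) * ((c p : ZMod 3) * x (σ.symm p)) = _
    rw [← mul_assoc, ← Units.val_mul, inv_mul_cancel_right]
  rw [this]
  exact hd x hx

theorem pres_neg {σ : Equiv.Perm ArrayPt} {c : ArrayPt → (ZMod 3)ˣ} (hc : Pres σ c) :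
    Pres σ (fun p => -c p) := by
  intro x hx
  have : monomialMap σ (fun p => -c p) x = -monomialMap σ c x := by
    funext p
    unfold monomialMap
    rw [Units.val_neg, neg_mul]; rfl
  rw [this]
  exact ternaryGolayCode.neg_mem (hc x hx)

theorem unit3 : ∀ u : (ZMod 3)ˣ, u = 1 ∨ u = -1 := by decide

theorem unit3_ne : (1 : (ZMod 3)ˣ) ≠ -1 := by decide

theorem card_mono : Nat.card {f : Equiv.Perm ArrayPt × (ArrayPt → (ZMod 3)ˣ) //
    ∀ x ∈ ternaryGolayCode, monomialMap f.1 f.2 x ∈ ternaryGolayCode} = 190080 := by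
  have hP : ∀ σ : setSystemAut hexads, ∃ c, Pres σ.1 c := fun σ => inP_iff.2 σ.2
  choose c hc using hP
  let F : setSystemAut hexads × (ZMod 3)ˣ → {f : Equiv.Perm ArrayPt × (ArrayPt → (ZMod 3)ˣ) //
    ∀ x ∈ ternaryGolayCode, monomialMap f.1 f.2 x ∈ ternaryGolayCode} := fun a =>
      ⟨(a.1.1, fun p => a.2 * c a.1 p), by
        rcases unit3 a.2 with h | h
        · rw [h]
          have h1 : (fun p => 1 * c a.1 p) = c a.1 := by funext p; rw [one_mul]
          change ∀ x ∈ ternaryGolayCode, monomialMap a.1.1 (fun p => 1 * c a.1 p) x ∈ ternaryGolayCode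
          rw [h1]; exact hc a.1
        · rw [h]
          have h1 : (fun p => -1 * c a.1 p) = fun p => -c a.1 p := by funext p; rw [neg_one_mul]
          change ∀ x ∈ ternaryGolayCode, monomialMap a.1.1 (fun p => -1 * c a.1 p) x ∈ ternaryGolayCode
          rw [h1]; exact pres_neg (hc a.1)⟩
  have hF : Function.Bijective F := by
    constructor
    · rintro ⟨σ, u⟩ ⟨τ, v⟩ h
      have h1 := congrArg (fun f => f.1.1) h
      have h2 := congrArg (fun f => f.1.2 (pos 0)) h
      have h3 : σ = τ := Subtype.ext h1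
      subst h3
      have h4 : u * c σ (pos 0) = v * c σ (pos 0) := h2
      rw [mul_left_inj] at h4
      rw [h4]
    · rintro ⟨⟨σ, d⟩, hd⟩
      have hσ : σ ∈ setSystemAut hexads := inP_iff.1 ⟨d, hd⟩
      have h1 := pres_sign (hc ⟨σ, hσ⟩) hd
      refine ⟨(⟨σ, hσ⟩, d (pos 0) * (c ⟨σ, hσ⟩ (pos 0))⁻¹), ?_⟩
      apply Subtype.ext
      apply Prod.ext
      · rfl
      · funext p
        change d (pos 0) * (c ⟨σ, hσ⟩ (pos 0))⁻¹ * c ⟨σ, hσ⟩ p = d p
        rw [h1 (pos 0) p, inv_mul_cancel_right]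
  rw [← Nat.card_eq_of_bijective F hF, Nat.card_prod, card_aut]
  have : Nat.card (ZMod 3)ˣ = 2 := by
    rw [Nat.card_eq_fintype_card]; decide
  rw [this]

end Cfsg.Agent.H91.Tern
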