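import Cfsg.Agent.H91.Tern
import Cfsg.Prelude.Def_Sporadic_a

set_option autoImplicit false

/-!
# The hexads of the ternary code of length 12
-/

namespace Cfsg.Agent.H91.Tern

open Cfsg

theorem mem_supp {x : ArrayPt → ZMod 3} {p : ArrayPt} : p ∈ ternarySupport x ↔ x p ≠ 0 := by
  simp [ternarySupport]

theorem eq_zero_of_card_lt {x : ArrayPt → ZMod 3} (hx : x ∈ ternaryGolayCode)
    (h : (ternarySupport x).card < 6) : x = 0 := by
  by_contra h0
  rcases weight_cases hx h0 with h1 | h1 | h1 <;> omega

theorem zmod3_cases {a b : ZMod 3} (ha : a ≠ 0) (hb : b ≠ 0) : a = b ∨ a = -b := by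
  revert a b; decide

theorem zmod3_sq {a : ZMod 3} (ha : a ≠ 0) : a * a = 1 := by
  revert a; decide

/-- weights are divisible by three: self-orthogonality -/
theorem dot_self {x : ArrayPt → ZMod 3} (hx : x ∈ ternaryGolayCode) : ∑ p, x p * x p = 0 := by
  have h1 : ∑ p, x p * x p = ((ternarySupport x).card : ZMod 3) := by
    rw [Finset.card_eq_sum_ones, Nat.cast_sum, ternarySupport, Finset.sum_filter]
    apply Finset.sum_congr rfl
    intro p _
    by_cases h : x p = 0
    · simp [h]
    · simp [h, zmod3_sq h]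
  rw [h1]
  by_cases h0 : x = 0
  · subst h0
    have : ternarySupport (0 : ArrayPt → ZMod 3) = ∅ := by
      ext p; simp [mem_supp]
    rw [this]; rfl
  · rcases weight_cases hx h0 with h | h | h <;> rw [h] <;> rfl

theorem dot_eq_zero {x y : ArrayPt → ZMod 3} (hx : x ∈ ternaryGolayCode) (hy : y ∈ ternaryGolayCode) :
    ∑ p, x p * y p = 0 := by
  have h1 := dot_self (ternaryGolayCode.add_mem hx hy)
  have h2 : ∑ p, (x + y) p * (x + y) p = ∑ p, x p * x p + ∑ p, y p * y p + 2 * ∑ p, x p * y p := by
    rw [Finset.mul_sum, ← Finset.sum_add_distrib, ← Finset.sum_add_distrib]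
    apply Finset.sum_congr rfl
    intro p _
    simp only [Pi.add_apply]
    ring
  rw [h2, dot_self hx, dot_self hy, zero_add, zero_add] at h1
  generalize (∑ p, x p * y p) = z at h1
  revert z; decide

/-- If the words agree on three points of the common support and the supports have size 6 then they
are equal. -/
theorem eq_of_agree {x y : ArrayPt → ZMod 3} (hx : x ∈ ternaryGolayCode) (hy : y ∈ ternaryGolayCode)
    (hx6 : (ternarySupport x).card = 6) (hy6 : (ternarySupport y).card = 6)
    (h5 : 5 ≤ (ternarySupport x ∩ ternarySupport y).card)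
    (h3 : 3 ≤ ((ternarySupport x ∩ ternarySupport y).filter (fun p => x p = y p)).card) : x = y := by
  apply sub_eq_zero.1
  apply eq_zero_of_card_lt (ternaryGolayCode.sub_mem hx hy)
  have h1 : ternarySupport (x - y) ⊆ (ternarySupport x ∪ ternarySupport y) \
      ((ternarySupport x ∩ ternarySupport y).filter (fun p => x p = y p)) := by
    intro p hp
    rw [mem_supp, Pi.sub_apply] at hp
    rw [Finset.mem_sdiff, Finset.mem_union, mem_supp, mem_supp, Finset.mem_filter]
    constructor
    · by_contra h
      push Not at h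
      apply hp
      rw [h.1, h.2, sub_self]
    · rintro ⟨_, h⟩
      apply hp
      rw [h, sub_self]
  have h2 := Finset.card_le_card h1
  rw [Finset.card_sdiff_of_subset] at h2
  · have h4 := Finset.card_union_add_card_inter (ternarySupport x) (ternarySupport y)
    omega
  · intro p hp
    rw [Finset.mem_filter, Finset.mem_inter] at hp
    exact Finset.mem_union_left _ hp.1.1

theorem supp_neg (y : ArrayPt → ZMod 3) : ternarySupport (-y) = ternarySupport y := by
  ext p; simp [mem_supp]

theorem eq_or_neg {x y : ArrayPt → ZMod 3} (hx : x ∈ ternaryGolayCode) (hy : y ∈ ternaryGolayCode)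
    (hx6 : (ternarySupport x).card = 6) (hy6 : (ternarySupport y).card = 6)
    (h5 : 5 ≤ (ternarySupport x ∩ ternarySupport y).card) : x = y ∨ x = -y := by
  have h1 : (ternarySupport x ∩ ternarySupport y) =
      ((ternarySupport x ∩ ternarySupport y).filter (fun p => x p = y p)) ∪
      ((ternarySupport x ∩ ternarySupport y).filter (fun p => x p = (-y) p)) := by
    rw [← Finset.filter_or]
    symm
    apply Finset.filter_true_of_mem
    intro p hp
    rw [Finset.mem_inter, mem_supp, mem_supp] at hp
    exact zmod3_cases hp.1 hp.2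
  have h2 := Finset.card_union_le ((ternarySupport x ∩ ternarySupport y).filter (fun p => x p = y p))
    ((ternarySupport x ∩ ternarySupport y).filter (fun p => x p = (-y) p))
  rw [← h1] at h2
  rcases (show 3 ≤ ((ternarySupport x ∩ ternarySupport y).filter (fun p => x p = y p)).card ∨
    3 ≤ ((ternarySupport x ∩ ternarySupport y).filter (fun p => x p = (-y) p)).card by omega) with h | h
  · exact Or.inl (eq_of_agree hx hy hx6 hy6 h5 h)
  · right
    apply eq_of_agree hx (ternaryGolayCode.neg_mem hy) hx6
    · rw [supp_neg]; exact hy6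
    · rw [supp_neg]; exact h5
    · rw [supp_neg]; exact h

/-- The hexads. -/
def hexads : Set (Finset ArrayPt) :=
  {h : Finset ArrayPt | ∃ x ∈ ternaryGolayCode, ternarySupport x = h ∧ h.card = 6}

theorem hexad_eq {h h' : Finset ArrayPt} (hh : h ∈ hexads) (hh' : h' ∈ hexads) (h5 : 5 ≤ (h ∩ h').card) :
    h = h' := by
  obtain ⟨x, hx, rfl, hx6⟩ := hh
  obtain ⟨y, hy, rfl, hy6⟩ := hh'
  rcases eq_or_neg hx hy hx6 hy6 h5 with rfl | rfl
  · rfl
  · rw [supp_neg]

/-- The hexads as a finset. -/
noncomputable def hexF : Finset (Finset ArrayPt) := (Set.toFinite hexads).toFinset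

@[simp] theorem mem_hexF {h : Finset ArrayPt} : h ∈ hexF ↔ h ∈ hexads := by simp [hexF]

theorem coe_hexF : (hexF : Set (Finset ArrayPt)) = hexads := by ext o; simp

theorem card_of_mem {h : Finset ArrayPt} (hh : h ∈ hexads) : h.card = 6 := by
  obtain ⟨x, _, _, h6⟩ := hh; exact h6

theorem card_hexF : hexF.card = 132 := by
  classical
  let W : Finset (ArrayPt → ZMod 3) :=
    (Set.toFinite {x : ArrayPt → ZMod 3 | x ∈ ternaryGolayCode ∧ (ternarySupport x).card = 6}).toFinset
  have hW : ∀ x, x ∈ W ↔ x ∈ ternaryGolayCode ∧ (ternarySupport x).card = 6 := by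
    intro x; simp [W]
  have hc : W.card = 264 := by
    have h1 := ncard_wt 6
    rw [card_wt6] at h1
    rw [← h1, ← Set.ncard_coe_finset]
    congr 1
    ext x
    rw [Finset.mem_coe, hW]; rfl
  have h1 := Finset.card_eq_sum_card_fiberwise (f := ternarySupport) (s := W) (t := hexF) (by
    intro x hx
    rw [Finset.mem_coe, hW] at hx
    rw [Finset.mem_coe, mem_hexF]
    exact ⟨x, hx.1, rfl, hx.2⟩)
  rw [Finset.sum_congr rfl (g := fun _ => 2)] at h1
  · rw [Finset.sum_const, smul_eq_mul, hc] at h1
    omega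
  · intro h hh
    rw [mem_hexF] at hh
    obtain ⟨x, hx, rfl, hx6⟩ := hh
    rw [Finset.card_eq_two]
    refine ⟨x, -x, ?_, ?_⟩
    · intro heq
      have hne : (ternarySupport x).Nonempty := by rw [← Finset.card_pos, hx6]; norm_num
      obtain ⟨p, hp⟩ := hne
      rw [mem_supp] at hp
      have := congrFun heq p
      rw [Pi.neg_apply] at this
      generalize x p = z at hp this
      revert z; decide
    · ext y
      rw [Finset.mem_filter, hW, Finset.mem_insert, Finset.mem_singleton]
      constructor
      · rintro ⟨⟨hy, hy6⟩, hsupp⟩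
        apply eq_or_neg hy hx hy6 hx6
        rw [hsupp, Finset.inter_self, hx6]; norm_num
      · rintro (rfl | rfl)
        · exact ⟨⟨hx, hx6⟩, rfl⟩
        · exact ⟨⟨ternaryGolayCode.neg_mem hx, by rw [supp_neg]; exact hx6⟩, supp_neg x⟩

theorem card_pt : Fintype.card ArrayPt = 12 := by
  rw [Fintype.card_prod, Fintype.card_fin, ZMod.card]

theorem existsUnique_hexad {s : Finset ArrayPt} (hs : s.card = 5) : ∃! h, h ∈ hexads ∧ s ⊆ h := by
  have key : ∀ {h h' s : Finset ArrayPt}, h ∈ hexads → h' ∈ hexads → s ⊆ h → s ⊆ h' → 5 ≤ s.card → h = h' :=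
    fun hh hh' h1 h2 h3 => hexad_eq hh hh' (h3.trans (Finset.card_le_card (Finset.subset_inter h1 h2)))
  have hdisj : (hexF : Set (Finset ArrayPt)).PairwiseDisjoint (fun o => o.powersetCard 5) := by
    intro o ho o' ho' hne
    rw [Function.onFun, Finset.disjoint_left]
    intro t ht ht'
    rw [Finset.mem_powersetCard] at ht ht'
    apply hne
    rw [coe_hexF] at ho ho'
    exact key ho ho' ht.1 ht'.1 (by omega)
  have hcard : (hexF.biUnion fun o => o.powersetCard 5).card = 792 := by
    rw [Finset.card_biUnion hdisj]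
    rw [Finset.sum_congr rfl (g := fun _ => 6)]
    · rw [Finset.sum_const, card_hexF]; norm_num
    · intro o ho
      rw [Finset.card_powersetCard, card_of_mem (mem_hexF.1 ho)]; decide
  have hsub : (hexF.biUnion fun o => o.powersetCard 5) ⊆ Finset.univ.powersetCard 5 := by
    intro t ht
    rw [Finset.mem_biUnion] at ht
    obtain ⟨o, _, ht⟩ := ht
    rw [Finset.mem_powersetCard] at ht ⊢
    exact ⟨Finset.subset_univ _, ht.2⟩
  have heq := Finset.eq_of_subset_of_card_le hsub (by
    rw [hcard, Finset.card_powersetCard, Finset.card_univ, card_pt]; norm_num [Nat.choose])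
  have hmem : s ∈ Finset.univ.powersetCard 5 := by
    rw [Finset.mem_powersetCard]; exact ⟨Finset.subset_univ _, hs⟩
  rw [← heq, Finset.mem_biUnion] at hmem
  obtain ⟨o, ho, ht⟩ := hmem
  rw [Finset.mem_powersetCard] at ht
  refine ⟨o, ⟨mem_hexF.1 ho, ht.1⟩, ?_⟩
  rintro o' ⟨ho', hs'⟩
  exact key ho' (mem_hexF.1 ho) hs' ht.1 (by omega)

theorem steiner : IsSteinerSystem 5 6 hexads := ⟨fun _ h => card_of_mem h, fun _ hs => existsUnique_hexad hs⟩

/-- Sign changes preserving the code are constant. -/
theorem diag_const {c : ArrayPt → (ZMod 3)ˣ}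
    (h : ∀ x ∈ ternaryGolayCode, monomialMap 1 c x ∈ ternaryGolayCode) : ∀ p q, c p = c q := by
  -- constant on each hexad
  have h1 : ∀ s ∈ hexads, ∀ p ∈ s, ∀ q ∈ s, c p = c q := by
    rintro s ⟨x, hx, rfl, h6⟩ p hp q hq
    rw [mem_supp] at hp hq
    by_contra hne
    -- `monomialMap 1 c x - c q • x` vanishes at `q` and is nonzero at `p`
    have h2 : monomialMap 1 c x - (c q : ZMod 3) • x ∈ ternaryGolayCode :=
      ternaryGolayCode.sub_mem (h x hx) (ternaryGolayCode.smul_mem _ hx)
    have h3 : ∀ r, (monomialMap 1 c x - (c q : ZMod 3) • x) r = ((c r : ZMod 3) - c q) * x r := by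
      intro r
      simp only [monomialMap, Pi.sub_apply, Pi.smul_apply, smul_eq_mul, sub_mul]
      rfl
    have h4 : ternarySupport (monomialMap 1 c x - (c q : ZMod 3) • x) ⊆ (ternarySupport x).erase q := by
      intro r hr
      rw [mem_supp, h3] at hr
      rw [Finset.mem_erase, mem_supp]
      constructor
      · rintro rfl; apply hr; rw [sub_self, zero_mul]
      · intro h0; apply hr; rw [h0, mul_zero]
    have h5 := eq_zero_of_card_lt h2 (by
      have := Finset.card_le_card h4
      rw [Finset.card_erase_of_mem (mem_supp.2 hq), h6] at this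
      omega)
    have h6 := congrFun h5 p
    rw [h3, Pi.zero_apply, mul_eq_zero, sub_eq_zero] at h6
    rcases h6 with h7 | h7
    · exact hne (Units.ext h7)
    · exact hp h7
  intro p q
  obtain ⟨t, hst, _, ht⟩ := Finset.exists_subsuperset_card_eq (Finset.subset_univ ({p, q} : Finset ArrayPt))
    (n := 5) (by have := Finset.card_le_two (a := p) (b := q); omega)
    (by rw [Finset.card_univ, card_pt]; norm_num)
  obtain ⟨s, ⟨hs, hts⟩, _⟩ := existsUnique_hexad ht
  exact h1 s hs p (hts (hst (by simp))) q (hts (hst (by simp)))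

end Cfsg.Agent.H91.Tern
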